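import Mathlib.GroupTheory.Commutator.Basic
import Mathlib.GroupTheory.PGroup
import Mathlib.Data.ZMod.Basic
import Cfsg.Agent.CoprimeAction.Hyperplane

/-!
A two-group of class two all of whose involutions are central: the index of the centre is at most the square of
the number of central elements killed by squaring.  The squaring map is a quadratic map without nontrivial zero,
so the indicator of zero would have degree at most twice the rank of the target, and functions of degree
less than the dimension have sum zero.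
-/

set_option autoImplicit false

namespace CfsgLib.OneClassInv

open scoped commutatorElement

universe u v

/-- `f` has polynomial degree at most `k`. -/
def Deg {W : Type u} [Group W] : ℕ → (W → ZMod 2) → Prop
  | 0, f => ∀ x y, f x = f y
  | k + 1, f => ∀ w, Deg k (fun x => f (w * x) - f x)

section Basic

variable {W : Type u} [Group W]

theorem deg_succ : ∀ {k : ℕ} {f : W → ZMod 2}, Deg k f → Deg (k + 1) f
  | 0, f, h => fun w x y => by simp only; rw [h (w * x) (w * y), h x y]
  | k + 1, f, h => fun w => deg_succ (k := k) (h w)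

theorem deg_mono {a b : ℕ} (hab : a ≤ b) {f : W → ZMod 2} (h : Deg a f) : Deg b f := by
  induction hab with
  | refl => exact h
  | step _ ih => exact deg_succ ih

theorem deg_add : ∀ {k : ℕ} {f g : W → ZMod 2}, Deg k f → Deg k g → Deg k (fun x => f x + g x)
  | 0, f, g, hf, hg => fun x y => by simp only; rw [hf x y, hg x y]
  | k + 1, f, g, hf, hg => fun w => by
    convert deg_add (k := k) (hf w) (hg w) using 1
    funext x; ring

theorem deg_shift : ∀ {k : ℕ} {f : W → ZMod 2} (c : W), Deg k f → Deg k (fun x => f (c * x))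
  | 0, f, c, h => fun x y => h (c * x) (c * y)
  | k + 1, f, c, h => fun w => by
    convert deg_shift (k := k) c (h (c * w * c⁻¹)) using 1
    funext x
    simp [mul_assoc]

theorem deg_comp {W' : Type v} [Group W'] (φ : W' →* W) :
    ∀ {k : ℕ} {f : W → ZMod 2}, Deg k f → Deg k (fun x => f (φ x))
  | 0, f, h => fun x y => h (φ x) (φ y)
  | k + 1, f, h => fun w => by
    convert deg_comp (k := k) φ (h (φ w)) using 1
    funext x
    simp only [map_mul]

theorem deg_const_mul (c : ZMod 2) : ∀ {k : ℕ} {f : W → ZMod 2}, Deg k f → Deg k (fun x => c * f x)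
  | 0, f, h => fun x y => by simp only; rw [h x y]
  | k + 1, f, h => fun w => by
    convert deg_const_mul c (k := k) (h w) using 1
    funext x; ring

theorem deg_mul : ∀ {n a b : ℕ} {f g : W → ZMod 2}, a + b = n → Deg a f → Deg b g →
    Deg n (fun x => f x * g x) := by
  intro n
  induction n with
  | zero =>
    intro a b f g hab hf hg
    obtain ⟨rfl, rfl⟩ : a = 0 ∧ b = 0 := by omega
    exact fun x y => by simp only; rw [hf x y, hg x y]
  | succ n ih =>
    intro a b f g hab hf hg
    rcases a with _ | a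
    · obtain rfl : b = n + 1 := by omega
      have : (fun x => f x * g x) = fun x => f 1 * g x := by funext x; rw [hf x 1]
      rw [this]; exact deg_const_mul _ hg
    rcases b with _ | b
    · obtain rfl : a = n := by omega
      have : (fun x => f x * g x) = fun x => g 1 * f x := by funext x; rw [hg x 1, mul_comm]
      rw [this]; exact deg_const_mul _ hf
    intro w
    convert deg_add (ih (a := a) (b := b + 1) (by omega) (hf w) (deg_shift w hg))
      (ih (a := a + 1) (b := b) (by omega) hf (hg w)) using 1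
    funext x; ring

end Basic

/-- A function of degree `k` on an elementary abelian group of order more than `2 ^ k` has sum zero. -/
theorem sum_eq_zero : ∀ (k : ℕ) {W : Type u} [CommGroup W] [Fintype W], (∀ x : W, x ^ 2 = 1) →
    2 ^ k < Nat.card W → ∀ f : W → ZMod 2, Deg k f → ∑ x, f x = 0 := by
  intro k
  induction k with
  | zero =>
    intro W _ _ hexp hcard f hf
    rw [Finset.sum_congr rfl fun x _ => hf x 1, Finset.sum_const, Finset.card_univ, nsmul_eq_mul]
    obtain ⟨x, hx⟩ : ∃ x : W, x ≠ 1 := by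
      by_contra h
      push Not at h
      have : Nat.card W = 1 := Nat.card_eq_one_iff_unique.mpr ⟨⟨fun a b => by rw [h a, h b]⟩, ⟨1⟩⟩
      omega
    have h2 : 2 ∣ Fintype.card W := orderOf_eq_prime (p := 2) (hexp x) hx ▸ orderOf_dvd_card
    rw [(ZMod.natCast_eq_zero_iff_even (n := Fintype.card W)).mpr (even_iff_two_dvd.mpr h2), zero_mul]
  | succ k ih =>
    intro W _ _ hexp hcard f hf
    classical
    obtain ⟨w, hw⟩ : ∃ x : W, x ≠ 1 := by
      by_contra h
      push Not at h
      have : Nat.card W = 1 := Nat.card_eq_one_iff_unique.mpr ⟨⟨fun a b => by rw [h a, h b]⟩, ⟨1⟩⟩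
      have := Nat.one_le_two_pow (n := k + 1)
      omega
    haveI : Fact (Nat.Prime 2) := ⟨Nat.prime_two⟩
    haveI : IsMulCommutative (⊤ : Subgroup W) := ⟨⟨fun a b => Subtype.ext (mul_comm (a : W) b)⟩⟩
    obtain ⟨B, -, hwB, -, hidx⟩ := CoprimeAction.exists_hyperplane (A := (⊤ : Subgroup W))
      (fun x _ => hexp x) (Subgroup.mem_top w) hw
    rw [Subgroup.relIndex_top_right] at hidx
    have hinv : w⁻¹ = w := inv_eq_iff_mul_eq_one.mpr (by rw [← pow_two]; exact hexp w)
    have hsplit : ∀ x, w * x ∈ B ↔ x ∉ B := fun x => by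
      rw [Subgroup.mul_mem_iff_of_index_two hidx]; tauto
    have h1 : ∑ x ∈ Finset.univ.filter (fun x => ¬ x ∈ B), f x =
        ∑ x ∈ Finset.univ.filter (fun x => x ∈ B), f (w * x) := by
      refine Finset.sum_nbij' (fun x => w * x) (fun x => w * x) ?_ ?_ ?_ ?_ ?_
      · intro x hx
        simpa [hsplit] using hx
      · intro x hx
        simpa [hsplit] using hx
      · intro x _
        rw [← mul_assoc, ← pow_two, hexp, one_mul]
      · intro x _
        rw [← mul_assoc, ← pow_two, hexp, one_mul]
      · intro x _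
        rw [← mul_assoc, ← pow_two, hexp, one_mul]
    rw [← Finset.sum_filter_add_sum_filter_not Finset.univ (fun x => x ∈ B), h1, ← Finset.sum_add_distrib]
    have h2 : ∀ x, f x + f (w * x) = f (w * x) - f x := fun x => by
      rw [CharTwo.sub_eq_add, add_comm]
    rw [Finset.sum_congr rfl fun x _ => h2 x,
      Finset.sum_subtype _ (p := fun x => x ∈ B) (fun x => by simp)]
    refine ih (W := B) (fun x => Subtype.ext (hexp x)) ?_ _ (deg_comp B.subtype (hf w))
    have h3 := B.card_mul_index
    rw [hidx] at h3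
    rw [pow_succ] at hcard
    omega

/-- The indicator of the zero fibre of a quadratic map to a group of order `2 ^ n` has degree `2 n`. -/
theorem deg_indicator : ∀ (n : ℕ) {V : Type v} [CommGroup V] [Finite V] [DecidableEq V],
    (∀ x : V, x ^ 2 = 1) → Nat.card V ≤ 2 ^ n → ∀ {W : Type u} [CommGroup W] (q : W → V),
    (∀ w, ∃ b : W →* V, ∀ x, q (w * x) = q x * q w * b x) →
    Deg (2 * n) (fun x => if q x = 1 then (1 : ZMod 2) else 0) := by
  intro n
  induction n with
  | zero =>
    intro V _ _ _ hexp hcard W _ q hq x y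
    haveI : Subsingleton V := Finite.card_le_one_iff_subsingleton.mp (by simpa using hcard)
    simp only
    rw [if_pos (Subsingleton.elim _ _), if_pos (Subsingleton.elim _ _)]
  | succ n ih =>
    intro V _ _ _ hexp hcard W _ q hq
    classical
    by_cases htriv : ∀ v : V, v = 1
    · refine deg_mono (Nat.zero_le _) (show Deg 0 _ from fun x y => ?_)
      rw [if_pos (htriv _), if_pos (htriv _)]
    push Not at htriv
    obtain ⟨a, ha⟩ := htriv
    haveI : Fact (Nat.Prime 2) := ⟨Nat.prime_two⟩
    haveI : IsMulCommutative (⊤ : Subgroup V) := ⟨⟨fun a b => Subtype.ext (mul_comm (a : V) b)⟩⟩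
    obtain ⟨B, -, haB, -, hidx⟩ := CoprimeAction.exists_hyperplane (A := (⊤ : Subgroup V))
      (fun x _ => hexp x) (Subgroup.mem_top a) ha
    rw [Subgroup.relIndex_top_right] at hidx
    set Z := Subgroup.zpowers a with hZ
    have hord : orderOf a = 2 := orderOf_eq_prime (hexp a) ha
    have hcardq : Nat.card (V ⧸ Z) ≤ 2 ^ n := by
      have h3 := Z.card_mul_index
      rw [Nat.card_zpowers, hord, Subgroup.index_eq_card] at h3
      rw [pow_succ] at hcard
      omega
    have hmem : ∀ v : V, v ∈ Z ↔ v = 1 ∨ v = a := by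
      intro v
      constructor
      · intro hv
        obtain ⟨i, rfl⟩ := Subgroup.mem_zpowers_iff.mp hv
        rcases Int.even_or_odd i with ⟨j, rfl⟩ | ⟨j, rfl⟩
        · left; rw [← two_mul, zpow_mul, zpow_ofNat, hexp, one_zpow]
        · right; rw [zpow_add, zpow_mul, zpow_ofNat, hexp, one_zpow, one_mul, zpow_one]
      · rintro (rfl | rfl)
        · exact one_mem _
        · exact Subgroup.mem_zpowers _
    have hexp' : ∀ x : V ⧸ Z, x ^ 2 = 1 := by
      intro x
      obtain ⟨v, rfl⟩ := QuotientGroup.mk_surjective x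
      rw [← QuotientGroup.mk_pow, hexp, QuotientGroup.mk_one]
    have hI := ih hexp' hcardq (fun x => (QuotientGroup.mk' Z) (q x)) (fun w => by
      obtain ⟨b, hb⟩ := hq w
      exact ⟨(QuotientGroup.mk' Z).comp b, fun x => by simp only [hb x, map_mul, MonoidHom.comp_apply]⟩)
    let χ : V → ZMod 2 := fun v => if v ∈ B then 0 else 1
    have hχ : ∀ v v', χ (v * v') = χ v + χ v' := by
      intro v v'
      simp only [χ]
      by_cases h1 : v ∈ B <;> by_cases h2 : v' ∈ B <;>
        simp [Subgroup.mul_mem_iff_of_index_two hidx, h1, h2]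
      decide
    have hdeg2 : Deg 2 (fun x => 1 + χ (q x)) := by
      intro w w' x y
      obtain ⟨b, hb⟩ := hq w
      simp only [hb, hχ, map_mul]
      ring
    have := deg_mul (n := 2 * (n + 1)) (by omega) hI hdeg2
    convert this using 1
    funext x
    simp only [QuotientGroup.mk'_apply, QuotientGroup.eq_one_iff, hmem]
    by_cases h1 : q x = 1
    · simp [h1, χ, one_mem B]
    by_cases h2 : q x = a
    · simp [h2, χ, haB, ha]
      decide
    · simp [h1, h2]

/-- The anisotropic squaring map: the bound on the index of the centre. -/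
theorem card_quotient_center_le {P : Type u} [Group P] [Finite P] (h2 : IsPGroup 2 P)
    (hsq : ∀ x : P, x ^ 2 ∈ Subgroup.center P) (hcom : ∀ x y : P, ⁅x, y⁆ ∈ Subgroup.center P)
    (hinv : ∀ x : P, x ^ 2 = 1 → x ∈ Subgroup.center P) :
    Nat.card (P ⧸ Subgroup.center P) ≤ Nat.card {z : Subgroup.center P // z ^ 2 = 1} ^ 2 := by
  classical
  haveI : Fact (Nat.Prime 2) := ⟨Nat.prime_two⟩
  letI : CommGroup (Subgroup.center P) :=
    { (inferInstance : Group (Subgroup.center P)) with
      mul_comm := fun a b => Subtype.ext (Subgroup.mem_center_iff.mp b.2 a) }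
  let σ : (Subgroup.center P) →* (Subgroup.center P) := powMonoidHom 2
  -- the target
  have hVcard : Nat.card ((Subgroup.center P) ⧸ σ.range) = Nat.card {z : (Subgroup.center P) // z ^ 2 = 1} := by
    have h1 : Nat.card σ.range * Nat.card ((Subgroup.center P) ⧸ σ.range) = Nat.card σ.ker * Nat.card σ.range := by
      rw [← Subgroup.index_eq_card, Subgroup.card_mul_index, ← Subgroup.index_ker, Subgroup.card_mul_index]
    rw [mul_comm (Nat.card σ.ker)] at h1
    rw [Nat.eq_of_mul_eq_mul_left Nat.card_pos h1]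
    exact Nat.card_congr (Equiv.subtypeEquivRight fun z => MonoidHom.mem_ker)
  have hVexp : ∀ x : (Subgroup.center P) ⧸ σ.range, x ^ 2 = 1 := by
    intro x
    obtain ⟨v, rfl⟩ := QuotientGroup.mk_surjective x
    rw [← QuotientGroup.mk_pow, QuotientGroup.eq_one_iff]
    exact ⟨v, rfl⟩
  obtain ⟨n, hn⟩ := IsPGroup.iff_card.mp ((h2.to_subgroup (Subgroup.center P)).to_quotient σ.range)
  -- the source
  letI : CommGroup (P ⧸ (Subgroup.center P)) :=
    { (inferInstance : Group (P ⧸ (Subgroup.center P))) with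
      mul_comm := fun a b => by
        obtain ⟨x, rfl⟩ := QuotientGroup.mk_surjective a
        obtain ⟨y, rfl⟩ := QuotientGroup.mk_surjective b
        have h := hcom y⁻¹ x⁻¹
        rw [← QuotientGroup.mk_mul, ← QuotientGroup.mk_mul, QuotientGroup.eq]
        convert h using 1
        simp [commutatorElement_def, mul_assoc] }
  haveI : Fintype (P ⧸ (Subgroup.center P)) := Fintype.ofFinite _
  have hWexp : ∀ x : P ⧸ (Subgroup.center P), x ^ 2 = 1 := by
    intro x
    obtain ⟨v, rfl⟩ := QuotientGroup.mk_surjective x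
    rw [← QuotientGroup.mk_pow, QuotientGroup.eq_one_iff]
    exact hsq v
  let q0 : P → (Subgroup.center P) ⧸ σ.range := fun x => QuotientGroup.mk (⟨x ^ 2, hsq x⟩ : (Subgroup.center P))
  have hq0 : ∀ (x : P) (z : (Subgroup.center P)), q0 (x * z) = q0 x := by
    intro x z
    have hc : Commute x (z : P) := Subgroup.mem_center_iff.mp z.2 x
    have e : (⟨(x * z) ^ 2, hsq _⟩ : (Subgroup.center P)) = ⟨x ^ 2, hsq x⟩ * σ z := Subtype.ext (hc.mul_pow 2)
    simp only [q0]
    rw [e, QuotientGroup.mk_mul_of_mem _ (show σ z ∈ σ.range from ⟨z, rfl⟩)]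
  let q : P ⧸ (Subgroup.center P) → (Subgroup.center P) ⧸ σ.range := fun w => q0 w.out
  have hq : ∀ x : P, q (QuotientGroup.mk x) = q0 x := by
    intro x
    obtain ⟨z, hz⟩ := QuotientGroup.mk_out_eq_mul (Subgroup.center P) x
    simp only [q]
    rw [hz, hq0]
  have hquad : ∀ w : P ⧸ (Subgroup.center P), ∃ b : P ⧸ (Subgroup.center P) →* (Subgroup.center P) ⧸ σ.range, ∀ x, q (w * x) = q x * q w * b x := by
    intro w
    obtain ⟨u, rfl⟩ := QuotientGroup.mk_surjective w
    let c : P → (Subgroup.center P) := fun v => ⟨⁅u⁻¹, v⁆, hcom _ _⟩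
    let cHom : P →* (Subgroup.center P) ⧸ σ.range := MonoidHom.mk' (fun v => QuotientGroup.mk (c v)) fun v v' => by
      rw [← QuotientGroup.mk_mul]
      congr 1
      refine Subtype.ext ?_
      show ⁅u⁻¹, v * v'⁆ = ⁅u⁻¹, v⁆ * ⁅u⁻¹, v'⁆
      have hc : ∀ g, g * ⁅u⁻¹, v'⁆ = ⁅u⁻¹, v'⁆ * g := Subgroup.mem_center_iff.mp (hcom _ _)
      have e : ⁅u⁻¹, v * v'⁆ = ⁅u⁻¹, v⁆ * (v * ⁅u⁻¹, v'⁆ * v⁻¹) := by
        simp [commutatorElement_def, mul_assoc]
      rw [e, hc v, mul_inv_cancel_right]
    have hker : (Subgroup.center P) ≤ cHom.ker := by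
      intro v hv
      rw [MonoidHom.mem_ker]
      show QuotientGroup.mk (c v) = 1
      have : c v = 1 := Subtype.ext (commutatorElement_eq_one_iff_mul_comm.mpr
        (Subgroup.mem_center_iff.mp hv u⁻¹))
      rw [this, QuotientGroup.mk_one]
    refine ⟨QuotientGroup.lift (Subgroup.center P) cHom hker, fun x => ?_⟩
    obtain ⟨v, rfl⟩ := QuotientGroup.mk_surjective x
    rw [← QuotientGroup.mk_mul, hq, hq, hq, QuotientGroup.lift_mk]
    show QuotientGroup.mk _ = QuotientGroup.mk _ * QuotientGroup.mk _ * QuotientGroup.mk (c v)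
    rw [← QuotientGroup.mk_mul, ← QuotientGroup.mk_mul]
    congr 1
    refine Subtype.ext ?_
    show (u * v) ^ 2 = v ^ 2 * u ^ 2 * ⁅u⁻¹, v⁆
    have h1 : ∀ g, g * v ^ 2 = v ^ 2 * g := Subgroup.mem_center_iff.mp (hsq v)
    rw [mul_assoc, ← h1]
    simp [commutatorElement_def, pow_two, mul_assoc]
  have hzero : ∀ w : P ⧸ (Subgroup.center P), q w = 1 ↔ w = 1 := by
    intro w
    obtain ⟨u, rfl⟩ := QuotientGroup.mk_surjective w
    rw [hq]
    constructor
    · intro h
      obtain ⟨z, hz⟩ := (QuotientGroup.eq_one_iff _).mp h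
      have hz' : (z : P) ^ 2 = u ^ 2 := congrArg Subtype.val hz
      have hc : Commute u ((z : P)⁻¹) := (show Commute u (z : P) from Subgroup.mem_center_iff.mp z.2 u).inv_right
      have h1 : (u * (z : P)⁻¹) ^ 2 = 1 := by rw [hc.mul_pow, inv_pow, hz', mul_inv_cancel]
      rw [QuotientGroup.eq_one_iff]
      have h2 := mul_mem (hinv _ h1) z.2
      rwa [inv_mul_cancel_right] at h2
    · intro h
      rw [QuotientGroup.eq_one_iff] at h
      exact (QuotientGroup.eq_one_iff _).mpr ⟨⟨u, h⟩, rfl⟩
  by_contra hlt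
  rw [← hVcard, hn, ← pow_mul, mul_comm, not_le] at hlt
  have h0 := sum_eq_zero (2 * n) hWexp hlt _ (deg_indicator n hVexp hn.le q hquad)
  simp only [hzero, Finset.sum_ite_eq', Finset.mem_univ, if_true] at h0
  exact absurd h0 (by decide)

end CfsgLib.OneClassInv
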