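import Mathlib.GroupTheory.PGroup
import Cfsg.Agent.CoprimeAction.Hyperplane

/-!
A faithful elementary abelian `q`-group of rank `k` (`q` odd) on a `2`-group multiplies the order of its
fixed point group by at least `4 ^ k`; a coprime automorphism of an abelian `2`-group fixing the involutions is
trivial.
-/

set_option autoImplicit false

namespace CfsgLib.OneClassInv

variable {G : Type*} [Group G] [Finite G]

theorem four_pow_mul_le {q : ℕ} [hq : Fact q.Prime] (hq2 : q ≠ 2) :
    ∀ (k : ℕ) (D C : Subgroup G), IsMulCommutative D → (∀ x ∈ D, x ^ q = 1) → Nat.card D = q ^ k →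
      D ≤ Subgroup.normalizer (C : Set G) → IsPGroup 2 C → D ⊓ Subgroup.centralizer (C : Set G) = ⊥ →
      4 ^ k * Nat.card ↥(C ⊓ Subgroup.centralizer (D : Set G)) ≤ Nat.card C := by
  haveI : Fact (Nat.Prime 2) := ⟨Nat.prime_two⟩
  intro k
  induction k with
  | zero =>
    intro D C _ _ _ _ _ _
    rw [pow_zero, one_mul]
    exact Subgroup.card_le_of_le inf_le_left
  | succ k ih =>
    intro D C hDc hexp hcard hDC hC hfaith
    haveI := hDc
    have hD0 : D ≠ ⊥ := by
      intro h
      rw [h, Subgroup.card_bot] at hcard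
      exact (Nat.one_lt_pow (Nat.succ_ne_zero k) hq.out.one_lt).ne hcard
    have hcop : (Nat.card D).Coprime (Nat.card C) := by
      obtain ⟨i, hi⟩ := IsPGroup.iff_card.mp hC
      rw [hcard, hi]
      exact ((Nat.coprime_primes hq.out Nat.prime_two).mpr hq2).pow _ _
    obtain ⟨B, hBD, hidx, hBfix⟩ : ∃ B ≤ D, B.relIndex D = q ∧
        ¬ C ⊓ Subgroup.centralizer (B : Set G) ≤ Subgroup.centralizer (D : Set G) := by
      by_contra hno
      push Not at hno
      apply hD0
      rw [← hfaith]
      refine (inf_eq_left.mpr ?_).symm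
      rw [Subgroup.le_centralizer_iff]
      exact CoprimeAction.le_of_hyperplane_centralizers_le hD0 hexp hDC hcop hno
    have hBc : IsMulCommutative B := ⟨⟨fun x y => Subtype.ext (congrArg (fun z : D => (z : G))
      (Std.Commutative.comm (op := fun (u v : D) => u * v) ⟨x, hBD x.2⟩ ⟨y, hBD y.2⟩))⟩⟩
    have hBcard : Nat.card B = q ^ k := by
      have h1 := Subgroup.relIndex_mul_relIndex ⊥ B D bot_le hBD
      rw [Subgroup.relIndex_bot_left, Subgroup.relIndex_bot_left, hidx, hcard, pow_succ] at h1
      exact Nat.eq_of_mul_eq_mul_right hq.out.pos h1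
    set S := C ⊓ Subgroup.centralizer (B : Set G) with hS
    set T := C ⊓ Subgroup.centralizer (D : Set G) with hT
    have h4 := ih B C hBc (fun x hx => hexp x (hBD hx)) hBcard (hBD.trans hDC) hC
      (eq_bot_iff.mpr (hfaith ▸ inf_le_inf_right _ hBD))
    rw [← hS] at h4
    -- `D` acts on the fixed points of `B`
    have hDS : D ≤ Subgroup.normalizer (S : Set G) := by
      intro d hd
      have hcomm : ∀ b ∈ B, b * d = d * b := fun b hb => congrArg Subtype.val
        (Std.Commutative.comm (op := fun (u v : D) => u * v) ⟨b, hBD hb⟩ ⟨d, hd⟩)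
      rw [Subgroup.mem_normalizer_iff]
      intro x
      simp only [hS, Subgroup.mem_inf, ← Subgroup.mem_normalizer_iff.mp (hDC hd) x]
      refine and_congr_right fun _ => ?_
      simp only [Subgroup.mem_centralizer_iff, SetLike.mem_coe]
      refine forall_congr' fun b => forall_congr' fun hb => ?_
      have h1 : b * d = d * b := hcomm b hb
      have h2 : b * d⁻¹ = d⁻¹ * b := (show Commute b d from h1).inv_right.eq
      constructor
      · intro hbx
        simp only [← mul_assoc]
        rw [h1, mul_assoc d b x, hbx, ← mul_assoc d x b, mul_assoc (d * x) b, h2, ← mul_assoc]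
      · intro hbx
        have h3 : d⁻¹ * (b * (d * x * d⁻¹)) * d = d⁻¹ * ((d * x * d⁻¹) * b) * d := by rw [hbx]
        simp only [← mul_assoc] at h3
        rw [← h2] at h3
        simp only [inv_mul_cancel_right, mul_assoc, inv_mul_cancel, mul_one] at h3
        rw [h1, ← mul_assoc, ← mul_assoc] at h3
        simpa [mul_assoc, h1] using h3
    let ψ : D →* MulAut S := (Subgroup.normalizerMonoidHom S).comp (Subgroup.inclusion hDS)
    letI : MulAction D S := MulAction.compHom S ψ
    have hDq : IsPGroup q D := IsPGroup.of_card hcard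
    have hfix : Nat.card (MulAction.fixedPoints D S) = Nat.card T := by
      refine Nat.card_congr
        { toFun := fun s => ⟨(s.1 : G), (Subgroup.mem_inf.mp s.1.2).1, ?_⟩
          invFun := fun t => ⟨⟨(t : G), (Subgroup.mem_inf.mp t.2).1,
            Subgroup.centralizer_le (SetLike.coe_subset_coe.mpr hBD) (Subgroup.mem_inf.mp t.2).2⟩, ?_⟩
          left_inv := fun s => rfl
          right_inv := fun t => rfl }
      · intro d hd
        have h := congrArg Subtype.val (s.2 ⟨d, hd⟩)
        change d * (s.1 : G) * d⁻¹ = s.1 at h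
        exact mul_inv_eq_iff_eq_mul.mp h
      · intro d
        apply Subtype.ext
        show (d : G) * (t : G) * (d : G)⁻¹ = t
        rw [mul_inv_eq_iff_eq_mul]
        exact (Subgroup.mem_inf.mp t.2).2 d d.2
    have hmod := hDq.card_modEq_card_fixedPoints (α := S)
    rw [hfix] at hmod
    have hTS : T ≤ S := inf_le_inf_left C (Subgroup.centralizer_le (SetLike.coe_subset_coe.mpr hBD))
    have hne : T ≠ S := fun h => hBfix (h ▸ inf_le_right)
    have hlt : Nat.card T < Nat.card S := lt_of_le_of_ne (Subgroup.card_le_of_le hTS)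
      fun h => hne (Subgroup.eq_of_le_of_card_ge hTS h.ge)
    obtain ⟨i, hi⟩ := IsPGroup.iff_card.mp (hC.to_le (inf_le_left : S ≤ C))
    obtain ⟨j, hj⟩ := IsPGroup.iff_card.mp (hC.to_le (inf_le_left : T ≤ C))
    rw [hi, hj] at hlt hmod
    have hji : j < i := (Nat.pow_lt_pow_iff_right (by norm_num)).mp hlt
    have hge : j + 2 ≤ i := by
      by_contra hh
      obtain rfl : i = j + 1 := by omega
      rw [pow_succ] at hmod
      have hd := (Nat.modEq_iff_dvd' (by omega : 2 ^ j ≤ 2 ^ j * 2)).mp hmod.symm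
      rw [show 2 ^ j * 2 - 2 ^ j = 2 ^ j by omega] at hd
      exact hq2 ((Nat.prime_dvd_prime_iff_eq hq.out Nat.prime_two).mp (hq.out.dvd_of_dvd_pow hd))
    calc 4 ^ (k + 1) * Nat.card T = 4 ^ k * (2 ^ 2 * 2 ^ j) := by rw [hj]; ring
      _ ≤ 4 ^ k * 2 ^ i := by
        rw [← pow_add]; exact Nat.mul_le_mul_left _ (Nat.pow_le_pow_right (by norm_num) (by omega))
      _ = 4 ^ k * Nat.card S := by rw [hi]
      _ ≤ Nat.card C := h4

/-- An element of odd order fixing the involutions of an abelian `2`-group it normalises centralises it. -/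
theorem commute_of_commute_involutions {k : G} (hk : Odd (orderOf k)) {Z : Subgroup G}
    (hZ : IsPGroup 2 Z) (hZc : ∀ a ∈ Z, ∀ b ∈ Z, a * b = b * a) (hn : k ∈ Subgroup.normalizer (Z : Set G))
    (hfix : ∀ e ∈ Z, e ^ 2 = 1 → k * e = e * k) : ∀ z ∈ Z, k * z = z * k := by
  suffices h : ∀ n : ℕ, ∀ z ∈ Z, z ^ 2 ^ n = 1 → k * z = z * k by
    intro z hz
    obtain ⟨n, hn⟩ := hZ ⟨z, hz⟩
    exact h n z hz (congrArg Subtype.val hn)
  intro n
  induction n with
  | zero =>
    intro z _ h
    rw [pow_zero, pow_one] at h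
    rw [h, one_mul, mul_one]
  | succ n ih =>
    intro z hz h
    have hkz : k * z * k⁻¹ ∈ Z := (Subgroup.mem_normalizer_iff.mp hn z).mp hz
    set e := z⁻¹ * (k * z * k⁻¹) with he
    have heZ : e ∈ Z := mul_mem (inv_mem hz) hkz
    have h2 : k * z ^ 2 = z ^ 2 * k := ih _ (pow_mem hz 2) (by rw [← pow_mul, ← pow_succ']; exact h)
    have he2 : e ^ 2 = 1 := by
      have hc : Commute z⁻¹ (k * z * k⁻¹) := hZc _ (inv_mem hz) _ hkz
      rw [he, hc.mul_pow, conj_pow, h2]
      group
    have hke : k * e * k⁻¹ = e := by rw [hfix e heZ he2, mul_inv_cancel_right]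
    have hstep : ∀ i : ℕ, k ^ i * z * (k ^ i)⁻¹ = z * e ^ i := by
      intro i
      induction i with
      | zero => simp
      | succ i ihi =>
        have e1 : k ^ (i + 1) * z * (k ^ (i + 1))⁻¹ = k * (k ^ i * z * (k ^ i)⁻¹) * k⁻¹ := by
          rw [pow_succ']; group
        rw [e1, ihi, show k * (z * e ^ i) * k⁻¹ = (k * z * k⁻¹) * (k * e ^ i * k⁻¹) by group,
          ← conj_pow, hke, pow_succ', ← mul_assoc z, he, mul_inv_cancel_left]
    have h1 := hstep (orderOf k)
    rw [pow_orderOf_eq_one, inv_one, mul_one, one_mul, left_eq_mul] at h1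
    obtain ⟨m, hm⟩ := hk
    rw [hm, pow_succ, pow_mul, he2, one_pow, one_mul] at h1
    rw [he, inv_mul_eq_one] at h1
    exact mul_inv_eq_iff_eq_mul.mp h1.symm

end CfsgLib.OneClassInv
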