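import Cfsg.Agent.CoprimeAction.Hyperplane
import Cfsg.Agent.CoprimeAction.Frattini
import Cfsg.Agent.BenderUnique.Basic
import Cfsg.Agent.Hall.Basic

/-!
An elementary abelian `2`-group `A` acting nontrivially on a `q`-group, normalised by a group `R` under which it
is irreducible and which fixes none of its nonidentity elements, yields an elementary abelian `q`-subgroup of
rank bigger than the rank of `A`.
-/

set_option autoImplicit false

namespace CfsgLib.OneClassInv

open scoped commutatorElement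

variable {H : Type*} [Group H] [Finite H]

theorem exists_frame {q : ℕ} [hq : Fact q.Prime] (hq2 : q ≠ 2) (A R P : Subgroup H) [IsMulCommutative A]
    (hAexp : ∀ a ∈ A, a ^ 2 = 1) (hRA : R ≤ Subgroup.normalizer (A : Set H)) [P.Normal] (hP : IsPGroup q P)
    (hnc : ¬ A ≤ Subgroup.centralizer (P : Set H))
    (hmin : ∀ B ≤ A, R ≤ Subgroup.normalizer (B : Set H) → B ≠ ⊥ → B = A)
    (hfix : ∀ t ∈ A, R ≤ Subgroup.centralizer ({t} : Set H) → t = 1) :
    ∃ (D : Subgroup H) (m : ℕ), D ≤ P ∧ IsMulCommutative D ∧ (∀ x ∈ D, x ^ q = 1) ∧ Nat.card D = q ^ m ∧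
      Nat.card A < 2 ^ m := by
  classical
  haveI : Fact (Nat.Prime 2) := ⟨Nat.prime_two⟩
  -- a minimal invariant subgroup moved by `A`
  obtain ⟨P₁, hP₁⟩ := (Set.toFinite {X : Subgroup H | X ≤ P ∧ A ≤ Subgroup.normalizer (X : Set H) ∧
      R ≤ Subgroup.normalizer (X : Set H) ∧ ¬ A ≤ Subgroup.centralizer (X : Set H)}).exists_minimal
    ⟨P, le_rfl, by rw [Subgroup.normalizer_eq_top P]; exact le_top, by rw [Subgroup.normalizer_eq_top P]; exact le_top, hnc⟩
  obtain ⟨hP₁P, hAP₁, hRP₁, hncP₁⟩ := hP₁.prop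
  have hP₁q : IsPGroup q P₁ := hP.to_le hP₁P
  set Φ := (frattini P₁).map P₁.subtype with hΦdef
  have hΦle : Φ ≤ P₁ := Subgroup.map_subtype_le _
  have hΦne : Φ ≠ P₁ := by
    intro h
    haveI : Nontrivial P₁ := (Subgroup.nontrivial_iff_ne_bot P₁).mpr fun hb => hncP₁ (by
      rw [Subgroup.le_centralizer_iff, hb]; exact bot_le)
    have h1 : frattini P₁ = ⊤ := Subgroup.map_injective P₁.subtype_injective
      (h.trans (by rw [← MonoidHom.range_eq_map, Subgroup.range_subtype]))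
    obtain ⟨M, hM⟩ := (Set.toFinite {M : Subgroup P₁ | M ≠ ⊤}).exists_maximal ⟨⊥, bot_ne_top⟩
    have hMco : IsCoatom M := ⟨hM.prop, fun b hb => by
      by_contra hbt
      exact hb.not_ge (hM.le_of_ge hbt hb.le)⟩
    exact hM.prop (top_le_iff.mp (h1 ▸ frattini_le_coatom hMco))
  have hΦA : A ≤ Subgroup.normalizer (Φ : Set H) :=
    hAP₁.trans (BenderUnique.normalizer_le_normalizer_map P₁ (frattini P₁))
  have hΦR : R ≤ Subgroup.normalizer (Φ : Set H) :=
    hRP₁.trans (BenderUnique.normalizer_le_normalizer_map P₁ (frattini P₁))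
  have hΦfix : ∀ f ∈ Φ, ∀ a ∈ A, a * f = f * a := by
    have h : A ≤ Subgroup.centralizer (Φ : Set H) := by
      by_contra hh
      exact hΦne (le_antisymm hΦle (hP₁.le_of_le ⟨hΦle.trans hP₁P, hΦA, hΦR, hh⟩ hΦle))
    exact fun f hf a ha => ((Subgroup.mem_centralizer_iff.mp (h ha)) f hf).symm
  -- squaring is injective on odd elements
  have hsq : ∀ z ∈ P₁, z ^ 2 = 1 → z = 1 := by
    intro z hz h2
    by_contra hne
    have h1 : orderOf z = 2 := orderOf_eq_prime h2 hne
    obtain ⟨i, hi⟩ := hP₁q ⟨z, hz⟩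
    have hd : orderOf z ∣ q ^ i := orderOf_dvd_of_pow_eq_one (congrArg Subtype.val hi)
    rw [h1] at hd
    exact hq2 ((Nat.prime_dvd_prime_iff_eq Nat.prime_two hq.out).mp (Nat.prime_two.dvd_of_dvd_pow hd)).symm
  have hinvΦ : ∀ z ∈ Φ, ∀ a ∈ A, a * z * a⁻¹ = z⁻¹ → z = 1 := by
    intro z hz a ha h
    rw [hΦfix z hz a ha, mul_inv_cancel_right] at h
    exact hsq z (hΦle hz) (by rw [pow_two]; nth_rewrite 2 [h]; exact mul_inv_cancel z)
  -- the hyperplanes of `A` with bigger centraliser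
  let ι := {B : Subgroup H // B ≤ A ∧ B.relIndex A = 2 ∧
    ¬ P₁ ⊓ Subgroup.centralizer (B : Set H) ≤ Subgroup.centralizer (A : Set H)}
  haveI : Fintype ι := Fintype.ofFinite _
  have hidx2 : ∀ B : ι, ∀ a ∈ A, ∀ a' ∈ A, (a * a' ∈ B.1 ↔ (a ∈ B.1 ↔ a' ∈ B.1)) := fun B a ha a' ha' => by
    have := Subgroup.mul_mem_iff_of_index_two (H := B.1.subgroupOf A) B.2.2.1 (a := ⟨a, ha⟩) (b := ⟨a', ha'⟩)
    simpa [Subgroup.mem_subgroupOf] using this
  have hinv : ∀ a ∈ A, a⁻¹ = a := fun a ha =>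
    inv_eq_iff_mul_eq_one.mpr (by rw [← pow_two]; exact hAexp a ha)
  have hAcomm : ∀ a ∈ A, ∀ b ∈ A, a * b = b * a := fun a ha b hb => congrArg Subtype.val
    (Std.Commutative.comm (op := fun (u v : A) => u * v) ⟨a, ha⟩ ⟨b, hb⟩)
  have hy : ∀ B : ι, ∃ y ∈ P₁, y ≠ 1 ∧ (∀ b ∈ B.1, b * y * b⁻¹ = y) ∧
      ∀ a ∈ A, a ∉ B.1 → a * y * a⁻¹ = y⁻¹ := by
    intro B
    obtain ⟨x, hx, hxA⟩ := SetLike.not_le_iff_exists.mp B.2.2.2
    obtain ⟨hxP, hxB⟩ := Subgroup.mem_inf.mp hx
    obtain ⟨a₀, ha₀, hne⟩ : ∃ a ∈ A, a * x ≠ x * a := by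
      by_contra h
      push Not at h
      exact hxA (Subgroup.mem_centralizer_iff.mpr h)
    refine ⟨x * a₀ * x⁻¹ * a₀⁻¹, ?_, ?_, ?_, ?_⟩
    · rw [show x * a₀ * x⁻¹ * a₀⁻¹ = x * (a₀ * x⁻¹ * a₀⁻¹) by group]
      exact mul_mem hxP ((Subgroup.mem_normalizer_iff.mp (hAP₁ ha₀) _).mp (inv_mem hxP))
    · intro h
      rw [mul_inv_eq_one, mul_inv_eq_iff_eq_mul] at h
      exact hne h.symm
    · intro b hb
      have h1 : Commute b x := Subgroup.mem_centralizer_iff.mp hxB b hb
      have h2 : Commute b a₀ := hAcomm b (B.2.1 hb) a₀ ha₀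
      rw [mul_inv_eq_iff_eq_mul]
      exact (((h1.mul_right h2).mul_right h1.inv_right).mul_right h2.inv_right).eq
    · intro a ha haB
      have ha₀B : a₀ ∉ B.1 := fun h => hne (Subgroup.mem_centralizer_iff.mp hxB a₀ h)
      have hb : a * a₀ ∈ B.1 := (hidx2 B a ha a₀ ha₀).mpr (by tauto)
      set b := a * a₀ with hbdef
      have h1 : Commute b x := Subgroup.mem_centralizer_iff.mp hxB b hb
      have h2 : Commute b a₀ := hAcomm b (mul_mem ha ha₀) a₀ ha₀
      have e : a = b * a₀ := by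
        rw [hbdef, mul_assoc, ← pow_two, hAexp a₀ ha₀, mul_one]
      have h3 : Commute b (a₀ * x * a₀⁻¹ * x⁻¹) :=
        (((h2.mul_right h1).mul_right h2.inv_right).mul_right h1.inv_right)
      have h4 : a₀ * (x * a₀ * x⁻¹ * a₀⁻¹) * a₀⁻¹ = a₀ * x * a₀⁻¹ * x⁻¹ := by
        rw [hinv a₀ ha₀, mul_assoc a₀ _ a₀, mul_assoc (x * a₀ * x⁻¹) a₀ a₀, ← pow_two, hAexp a₀ ha₀, mul_one]
        simp only [mul_assoc]
      calc a * (x * a₀ * x⁻¹ * a₀⁻¹) * a⁻¹
          = b * (a₀ * (x * a₀ * x⁻¹ * a₀⁻¹) * a₀⁻¹) * b⁻¹ := by rw [e]; group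
        _ = a₀ * x * a₀⁻¹ * x⁻¹ := by rw [h4, h3.eq, mul_inv_cancel_right]
        _ = (x * a₀ * x⁻¹ * a₀⁻¹)⁻¹ := by group
  choose y hyP hy1 hyB hyA using hy
  -- a hyperplane not containing a given element
  have hout : ∀ B : ι, ∃ a ∈ A, a ∉ B.1 := fun B => SetLike.not_le_iff_exists.mp fun h => by
    have h1 := B.2.2.1
    rw [Subgroup.relIndex_eq_one.mpr h] at h1
    exact absurd h1 (by norm_num)
  have hyΦ : ∀ B : ι, y B ∉ Φ := fun B h => by
    obtain ⟨a, ha, haB⟩ := hout B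
    exact hy1 B (hinvΦ _ h a ha (hyA B a ha haB))
  have hypow : ∀ B : ι, y B ^ q = 1 := fun B => by
    obtain ⟨a, ha, haB⟩ := hout B
    refine hinvΦ _ ⟨(⟨y B, hyP B⟩ : P₁) ^ q, CoprimeAction.pow_mem_frattini hP₁q _, rfl⟩ a ha ?_
    rw [← conj_pow, hyA B a ha haB, inv_pow]
  -- two hyperplanes are separated
  have hsep : ∀ B B' : ι, B ≠ B' → ∃ a ∈ A, a ∉ B.1 ∧ a ∈ B'.1 := by
    intro B B' hne
    by_contra h
    push Not at h
    have hle : B'.1 ≤ B.1 := fun a ha => by
      by_contra haB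
      exact h a (B'.2.1 ha) haB ha
    refine hne (Subtype.ext (le_antisymm ?_ hle))
    refine Subgroup.relIndex_eq_one.mp ?_
    have h1 := Subgroup.relIndex_mul_relIndex B'.1 B.1 A hle B.2.1
    rw [B'.2.2.1, B.2.2.1] at h1
    omega
  -- elements inverted by an element of `A` commute with `Φ`
  have hΦy : ∀ B : ι, ∀ f ∈ Φ, y B * f = f * y B := by
    intro B f hf
    obtain ⟨a, ha, haB⟩ := hout B
    have hf' : y B * f * (y B)⁻¹ ∈ Φ := by
      have hmem : (⟨y B, hyP B⟩ : P₁) ∈ Subgroup.normalizer ((frattini P₁ : Subgroup P₁) : Set P₁) := by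
        rw [Subgroup.normalizer_eq_top]; exact Subgroup.mem_top _
      obtain ⟨f₀, hf₀, rfl⟩ := hf
      exact ⟨_, (Subgroup.mem_normalizer_iff.mp hmem f₀).mp hf₀, rfl⟩
    have h1 : a * (y B * f * (y B)⁻¹) * a⁻¹ = y B * f * (y B)⁻¹ := by
      rw [hΦfix _ hf' a ha, mul_inv_cancel_right]
    have h2 : a * (y B * f * (y B)⁻¹) * a⁻¹ = (y B)⁻¹ * f * y B := by
      calc a * (y B * f * (y B)⁻¹) * a⁻¹ = (a * y B * a⁻¹) * (a * f * a⁻¹) * (a * y B * a⁻¹)⁻¹ := by group
        _ = (y B)⁻¹ * f * y B := by rw [hyA B a ha haB, hΦfix f hf a ha, mul_inv_cancel_right, inv_inv]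
    have h3 : Commute (y B ^ 2) f := by
      show y B ^ 2 * f = f * y B ^ 2
      have h := h1.symm.trans h2
      calc y B ^ 2 * f = y B * (y B * f * (y B)⁻¹) * y B := by simp [pow_two, mul_assoc]
        _ = y B * ((y B)⁻¹ * f * y B) * y B := by rw [h]
        _ = f * y B ^ 2 := by simp [pow_two, mul_assoc]
    obtain ⟨m, hm⟩ : ∃ m, q = 2 * m + 1 := hq.out.odd_of_ne_two hq2
    have h4 : (y B ^ 2) ^ (m + 1) = y B := by
      rw [← pow_mul, show 2 * (m + 1) = q + 1 by omega, pow_succ, hypow, one_mul]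
    have h5 := h3.pow_left (m + 1)
    rw [h4] at h5
    exact h5.eq
  have hyy : ∀ B B' : ι, y B * y B' = y B' * y B := by
    intro B B'
    rcases eq_or_ne B B' with rfl | hne
    · rfl
    obtain ⟨a, ha, haB', haB⟩ := hsep B' B hne.symm
    have hc : ⁅y B, y B'⁆ ∈ Φ := ⟨⁅(⟨y B, hyP B⟩ : P₁), ⟨y B', hyP B'⟩⁆,
      CoprimeAction.commutator_le_frattini' hP₁q
        (Subgroup.commutator_mem_commutator (Subgroup.mem_top _) (Subgroup.mem_top _)), rfl⟩
    refine commutatorElement_eq_one_iff_mul_comm.mp (hinvΦ _ hc a ha ?_)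
    calc a * ⁅y B, y B'⁆ * a⁻¹ = ⁅a * y B * a⁻¹, a * y B' * a⁻¹⁆ := by
          simp [commutatorElement_def, mul_assoc]
      _ = ⁅y B, (y B')⁻¹⁆ := by rw [hyA B' a ha haB', hyB B a haB]
      _ = (y B')⁻¹ * (⁅y B, y B'⁆)⁻¹ * y B' := by simp [commutatorElement_def, mul_assoc]
      _ = (⁅y B, y B'⁆)⁻¹ := by
          rw [mul_assoc, (show (⁅y B, y B'⁆)⁻¹ * y B' = y B' * (⁅y B, y B'⁆)⁻¹ from
            (hΦy B' _ (inv_mem hc)).symm), inv_mul_cancel_left]
  -- the elementary abelian subgroup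
  haveI hDc : IsMulCommutative (Subgroup.closure (Set.range y)) :=
    Subgroup.isMulCommutative_closure (by rintro _ ⟨B, rfl⟩ _ ⟨B', rfl⟩; exact hyy B B')
  have hexpD : ∀ x ∈ Subgroup.closure (Set.range y), x ^ q = 1 := by
    intro x hx
    induction hx using Subgroup.closure_induction with
    | mem x hx => obtain ⟨B, rfl⟩ := hx; exact hypow B
    | one => exact one_pow q
    | mul u v hu hv hu' hv' =>
      have hc : Commute u v := congrArg Subtype.val (Std.Commutative.comm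
        (op := fun (s t : Subgroup.closure (Set.range y)) => s * t) ⟨u, hu⟩ ⟨v, hv⟩)
      rw [hc.mul_pow, hu', hv', one_mul]
    | inv u _ hu' => rw [inv_pow, hu', inv_one]
  let D : Finset ι → Subgroup H := fun S => Subgroup.closure (y '' (S : Set ι))
  have hDle : ∀ S, D S ≤ Subgroup.closure (Set.range y) := fun S =>
    Subgroup.closure_mono (Set.image_subset_range _ _)
  have hDins : ∀ (S : Finset ι) B', D (insert B' S) = D S ⊔ Subgroup.zpowers (y B') := fun S B' => by
    simp only [D, Finset.coe_insert, Set.image_insert_eq]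
    rw [Set.insert_eq, Subgroup.closure_union, Subgroup.zpowers_eq_closure, sup_comm]
  have hind : ∀ (S : Finset ι) (B : ι), B ∉ S → y B ∉ D S := by
    intro S
    induction S using Finset.induction with
    | empty =>
      intro B _
      simpa [D] using hy1 B
    | insert B' S hB' ih =>
      intro B hB hmem
      rw [Finset.mem_insert, not_or] at hB
      rw [hDins] at hmem
      have hn : Subgroup.zpowers (y B') ≤ Subgroup.normalizer (D S : Set H) := by
        refine le_trans ?_ (Subgroup.centralizer_le_normalizer _)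
        refine Subgroup.zpowers_le.mpr (Subgroup.mem_centralizer_iff.mpr fun g hg => ?_)
        exact congrArg Subtype.val (Std.Commutative.comm
          (op := fun (s t : Subgroup.closure (Set.range y)) => s * t) ⟨g, hDle S hg⟩
          ⟨y B', Subgroup.subset_closure ⟨B', rfl⟩⟩)
      obtain ⟨d, hd, z, hz, hdz⟩ := Hall.exists_mul_of_mem_sup hn hmem
      obtain ⟨a, ha, haB, haB'⟩ := hsep B B' hB.1
      have hconjd : a * d * a⁻¹ ∈ D S := by
        have h : D S ≤ (D S).comap (MulAut.conj a).toMonoidHom := by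
          refine (Subgroup.closure_le _).mpr ?_
          rintro _ ⟨C, hC, rfl⟩
          show a * y C * a⁻¹ ∈ D S
          by_cases haC : a ∈ C.1
          · rw [hyB C a haC]; exact Subgroup.subset_closure ⟨C, hC, rfl⟩
          · rw [hyA C a ha haC]; exact inv_mem (Subgroup.subset_closure ⟨C, hC, rfl⟩)
        exact h hd
      have hconjz : a * z * a⁻¹ = z := by
        obtain ⟨i, rfl⟩ := Subgroup.mem_zpowers_iff.mp hz
        rw [← conj_zpow, hyB B' a haB']
      have h1 : (y B)⁻¹ = a * d * a⁻¹ * z := by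
        rw [← hyA B a ha haB, ← hdz]
        calc a * (d * z) * a⁻¹ = (a * d * a⁻¹) * (a * z * a⁻¹) := by group
          _ = _ := by rw [hconjz]
      have h2 : y B ^ 2 ∈ D S := by
        have h3 : y B ^ 2 = d * (a * d * a⁻¹)⁻¹ := by
          calc y B ^ 2 = y B * ((y B)⁻¹)⁻¹ := by rw [inv_inv, pow_two]
            _ = (d * z) * (a * d * a⁻¹ * z)⁻¹ := by rw [h1, hdz]
            _ = _ := by group
        rw [h3]; exact mul_mem hd (inv_mem hconjd)
      obtain ⟨m, hm⟩ : ∃ m, q = 2 * m + 1 := hq.out.odd_of_ne_two hq2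
      refine ih B hB.2 ?_
      have h4 := pow_mem h2 (m + 1)
      rwa [← pow_mul, show 2 * (m + 1) = q + 1 by omega, pow_succ, hypow, one_mul] at h4
  have hcard : ∀ S : Finset ι, Nat.card (D S) = q ^ S.card := by
    intro S
    induction S using Finset.induction with
    | empty => simp [D]
    | insert B' S hB' ih =>
      have h := CoprimeAction.relIndex_sup_zpowers (p := q) (A := Subgroup.closure (Set.range y)) (hDle S)
        (Subgroup.subset_closure ⟨B', rfl⟩) (hypow B') (hind S B' hB')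
      have h1 := Subgroup.relIndex_mul_relIndex ⊥ (D S) (D S ⊔ Subgroup.zpowers (y B')) bot_le le_sup_left
      rw [Subgroup.relIndex_bot_left, Subgroup.relIndex_bot_left, h, ih] at h1
      rw [hDins, Finset.card_insert_of_notMem hB', pow_succ, h1]
  refine ⟨Subgroup.closure (Set.range y), Fintype.card ι, ?_, hDc, hexpD, ?_, ?_⟩
  · rw [Subgroup.closure_le]
    rintro _ ⟨B, rfl⟩
    exact hP₁P (hyP B)
  · have := hcard Finset.univ
    simpa [D] using this
  -- counting
  have hcentr : ∀ c ∈ A, (∀ B : ι, c ∈ B.1) → c = 1 := by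
    intro c hc hall
    have hAne : A ≠ ⊥ := fun h => hncP₁ (h ▸ bot_le)
    have hcop : (Nat.card A).Coprime (Nat.card P₁) := by
      have hA2 : IsPGroup 2 A := fun a => ⟨1, Subtype.ext (by rw [pow_one]; exact hAexp a a.2)⟩
      obtain ⟨i, hi⟩ := IsPGroup.iff_card.mp hA2
      obtain ⟨j, hj⟩ := IsPGroup.iff_card.mp hP₁q
      rw [hi, hj]
      exact ((Nat.coprime_primes Nat.prime_two hq.out).mpr hq2.symm).pow _ _
    have hle : P₁ ≤ Subgroup.centralizer ({c} : Set H) := by
      refine CoprimeAction.le_of_hyperplane_centralizers_le hAne hAexp hAP₁ hcop fun B hBA hBidx x hx => ?_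
      rw [Subgroup.mem_centralizer_singleton_iff]
      by_cases hBι : P₁ ⊓ Subgroup.centralizer (B : Set H) ≤ Subgroup.centralizer (A : Set H)
      · exact (Subgroup.mem_centralizer_iff.mp (hBι hx) c hc).symm
      · exact (Subgroup.mem_centralizer_iff.mp (Subgroup.mem_inf.mp hx).2 c (hall ⟨B, hBA, hBidx, hBι⟩)).symm
    have hC : A ⊓ Subgroup.centralizer (P₁ : Set H) = ⊥ := by
      by_contra hne
      refine hncP₁ (inf_eq_left.mp (hmin _ inf_le_left ?_ hne))
      intro r hr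
      rw [Subgroup.mem_normalizer_iff]
      intro x
      simp only [Subgroup.mem_inf, ← Subgroup.mem_normalizer_iff.mp (hRA hr) x]
      refine and_congr_right fun _ => ?_
      simp only [Subgroup.mem_centralizer_iff, SetLike.mem_coe]
      constructor
      · intro h g hg
        have h' := h _ ((Subgroup.mem_normalizer_iff''.mp (hRP₁ hr) g).mp hg)
        calc g * (r * x * r⁻¹) = r * (r⁻¹ * g * r * x) * r⁻¹ := by group
          _ = r * (x * (r⁻¹ * g * r)) * r⁻¹ := by rw [h']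
          _ = r * x * r⁻¹ * g := by group
      · intro h g hg
        have h' := h _ ((Subgroup.mem_normalizer_iff.mp (hRP₁ hr) g).mp hg)
        calc g * x = r⁻¹ * (r * g * r⁻¹ * (r * x * r⁻¹)) * r := by group
          _ = r⁻¹ * (r * x * r⁻¹ * (r * g * r⁻¹)) * r := by rw [h']
          _ = x * g := by group
    have : c ∈ A ⊓ Subgroup.centralizer (P₁ : Set H) :=
      ⟨hc, Subgroup.mem_centralizer_iff.mpr fun g hg =>
        Subgroup.mem_centralizer_singleton_iff.mp (hle hg)⟩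
    rwa [hC, Subgroup.mem_bot] at this
  let Θ : A → (ι → Bool) := fun a B => decide ((a : H) ∈ B.1)
  have hΘ : Function.Injective Θ := by
    intro a a' h
    have h1 : (a : H) * a' = 1 := hcentr _ (mul_mem a.2 a'.2) fun B =>
      (hidx2 B _ a.2 _ a'.2).mpr (by simpa [Θ] using congrFun h B)
    exact Subtype.ext (inv_injective ((inv_eq_iff_mul_eq_one.mpr h1).trans (hinv _ a'.2).symm))
  have hcardι : Nat.card (ι → Bool) = 2 ^ Fintype.card ι := by simp [Nat.card_eq_fintype_card]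
  rw [← hcardι]
  refine lt_of_le_of_ne (Nat.card_le_card_of_injective Θ hΘ) fun heq => ?_
  obtain ⟨t, ht⟩ := (hΘ.bijective_of_nat_card_le heq.ge).2 (fun _ => false)
  have ht' : ∀ B : ι, (t : H) ∉ B.1 := fun B => by simpa [Θ] using congrFun ht B
  have ht1 : (t : H) = 1 := by
    refine hfix t t.2 fun r hr => ?_
    rw [Subgroup.mem_centralizer_singleton_iff]
    have hrt : r * t * r⁻¹ ∈ A := (Subgroup.mem_normalizer_iff.mp (hRA hr) _).mp t.2
    have key : ∀ B : ι, r * t * r⁻¹ ∉ B.1 := by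
      intro B hB
      let c : H →* H := (MulAut.conj r⁻¹).toMonoidHom
      have hcA : A.map c = A := by
        refine Subgroup.eq_of_le_of_card_ge ?_ (by rw [Subgroup.card_map_of_injective (f := c) (MulAut.conj r⁻¹).injective])
        rintro _ ⟨x, hx, rfl⟩
        exact (Subgroup.mem_normalizer_iff.mp (hRA (inv_mem hr)) x).mp hx
      have h1 : B.1.map c ≤ A := (Subgroup.map_mono B.2.1).trans hcA.le
      have h2 : (B.1.map c).relIndex A = 2 := by
        have h := Subgroup.relIndex_map_map_of_injective B.1 A (f := c) (MulAut.conj r⁻¹).injective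
        rw [hcA] at h
        exact h.trans B.2.2.1
      have h3 : ¬ P₁ ⊓ Subgroup.centralizer ((B.1.map c : Subgroup H) : Set H) ≤
          Subgroup.centralizer (A : Set H) := by
        intro hle
        refine B.2.2.2 fun x hx => ?_
        have hx' : r⁻¹ * x * r⁻¹⁻¹ ∈ P₁ ⊓ Subgroup.centralizer ((B.1.map c : Subgroup H) : Set H) := by
          refine ⟨(Subgroup.mem_normalizer_iff.mp (hRP₁ (inv_mem hr)) x).mp hx.1, Subgroup.mem_centralizer_iff.mpr ?_⟩
          rintro _ ⟨b, hb, rfl⟩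
          show r⁻¹ * b * r⁻¹⁻¹ * _ = _ * (r⁻¹ * b * r⁻¹⁻¹)
          rw [conj_mul, conj_mul, Subgroup.mem_centralizer_iff.mp hx.2 b hb]
        have h := hle hx'
        rw [Subgroup.mem_centralizer_iff] at h ⊢
        intro a ha
        have h' := h (r⁻¹ * a * r⁻¹⁻¹) ((Subgroup.mem_normalizer_iff.mp (hRA (inv_mem hr)) a).mp ha)
        rw [conj_mul, conj_mul] at h'
        exact mul_left_cancel (mul_right_cancel h')
      refine ht' ⟨_, h1, h2, h3⟩ ⟨_, hB, ?_⟩
      show r⁻¹ * (r * t * r⁻¹) * r⁻¹⁻¹ = t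
      group
    have : (⟨r * t * r⁻¹, hrt⟩ : A) = t := hΘ (by
      rw [ht]; funext B; simp [Θ, key B])
    exact (mul_inv_eq_iff_eq_mul.mp (congrArg Subtype.val this))
  haveI : IsEmpty ι := ⟨fun B => ht' B (ht1 ▸ one_mem B.1)⟩
  have hsub : Nat.card A ≤ 1 := by
    rw [heq, hcardι, Fintype.card_eq_zero, pow_zero]
  exact hncP₁ (Subgroup.eq_bot_of_card_le A hsub ▸ bot_le)

end CfsgLib.OneClassInv
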