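import Cfsg.Agent.PCore.Basic
import Cfsg.Agent.PCore.PSolvable
import Cfsg.Agent.PCore.PConstrained
import Cfsg.Agent.CoprimeAction.Conjugacy
import Cfsg.Agent.CoprimeAction.Action
import Cfsg.Agent.Hall.Fitting
import Cfsg.Agent.PGroup.Critical
import Cfsg.Agent.PLocalBasics.PLength
import Cfsg.Agent.OneClassInv.Degree
import Cfsg.Agent.OneClassInv.FixedRank
import Cfsg.Agent.OneClassInv.Frame

/-!
A solvable group with one class of involutions and more than one involution has `2`-length one.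
-/

set_option autoImplicit false

namespace CfsgLib.OneClassInv

open Pointwise

universe u

variable {G : Type u} [Group G] [Finite G]

/-- Multiplicativity of the index along a product decomposition. -/
theorem relIndex_eq_index_of_mul {Y S : Subgroup G} (h : ∀ g, ∃ y ∈ Y, ∃ s ∈ S, g = y * s) :
    S.relIndex Y = S.index := by
  let f : Y ⧸ S.subgroupOf Y → G ⧸ S := Quotient.map' Subtype.val fun a b hab => by
    rw [QuotientGroup.leftRel_apply] at hab ⊢
    exact hab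
  have hf : Function.Injective f := by
    intro a b
    induction a using QuotientGroup.induction_on with
    | H a =>
      induction b using QuotientGroup.induction_on with
      | H b =>
        intro hab
        change ((a : G) : G ⧸ S) = ((b : G) : G ⧸ S) at hab
        rw [QuotientGroup.eq] at hab
        exact QuotientGroup.eq.mpr hab
  refine Nat.card_eq_of_bijective f ⟨hf, fun x => ?_⟩
  obtain ⟨g, rfl⟩ := QuotientGroup.mk_surjective x
  obtain ⟨y, hy, s, hs, rfl⟩ := h g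
  refine ⟨QuotientGroup.mk ⟨y, hy⟩, ?_⟩
  show (y : G ⧸ S) = ((y * s : G) : G ⧸ S)
  rw [QuotientGroup.mk_mul_of_mem _ hs]

theorem not_two_dvd_index [Group.IsSolvable G] (hcore : Cfsg.pPrimeCore 2 G = ⊥)
    (hconj : ∀ x y : G, x ≠ 1 → x ^ 2 = 1 → y ≠ 1 → y ^ 2 = 1 → IsConj x y)
    (htwo : ∃ x y : G, x ≠ y ∧ x ≠ 1 ∧ x ^ 2 = 1 ∧ y ≠ 1 ∧ y ^ 2 = 1) :
    ¬ 2 ∣ (Cfsg.pCore 2 G).index := by
  classical
  haveI : Fact (Nat.Prime 2) := ⟨Nat.prime_two⟩
  intro hdvd
  set Q := Cfsg.pCore 2 G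
  have hQp : IsPGroup 2 Q := CfsgLib.PCore.isPGroup_pCore 2 G
  haveI hQc : Q.Characteristic := CfsgLib.PCore.pCore_characteristic 2 G
  have hhh : Subgroup.centralizer (Q : Set G) ≤ Q :=
    CfsgLib.PCore.hall_higman CfsgLib.PCore.isPSolvable_of_isSolvable hcore
  haveI : Nontrivial G := by
    obtain ⟨x, -, -, hx, -⟩ := htwo
    exact ⟨x, 1, hx⟩
  have hQ0 : Q ≠ ⊥ := CfsgLib.PCore.cores_ne_bot_of_isSolvable.resolve_right (not_not.mpr hcore)
  -- the involutions are central in `Q`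
  have hZ : ∀ x : G, x ^ 2 = 1 → x ∈ Q ∧ x ∈ Subgroup.centralizer (Q : Set G) := by
    haveI : Nontrivial Q := (Subgroup.nontrivial_iff_ne_bot Q).mpr hQ0
    haveI := hQp.center_nontrivial
    obtain ⟨k, hk⟩ := IsPGroup.iff_card.mp (hQp.to_subgroup (Subgroup.center Q))
    have hk0 : k ≠ 0 := fun h0 => by
      rw [h0, pow_zero] at hk
      exact (Finite.one_lt_card (α := Subgroup.center Q)).ne' hk
    obtain ⟨z, hz⟩ := exists_prime_orderOf_dvd_card' (G := Subgroup.center Q) 2 (hk ▸ dvd_pow_self 2 hk0)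
    have hzG : orderOf ((z : Q) : G) = 2 := by rw [Subgroup.orderOf_coe, Subgroup.orderOf_coe, hz]
    intro x hx
    rcases eq_or_ne x 1 with rfl | hx1
    · exact ⟨one_mem _, one_mem _⟩
    have hz2 : ((z : Q) : G) ^ 2 = 1 := by
      have := pow_orderOf_eq_one ((z : Q) : G)
      rwa [hzG] at this
    obtain ⟨g, hg⟩ := isConj_iff.mp (hconj ((z : Q) : G) x (fun h => by rw [h, orderOf_one] at hzG; omega)
      hz2 hx1 hx)
    haveI : (Subgroup.centralizer (Q : Set G)).Normal := Subgroup.normal_centralizer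
    rw [← hg]
    exact ⟨Subgroup.Normal.conj_mem inferInstance _ (z : Q).2 g, Subgroup.Normal.conj_mem inferInstance _
      (Subgroup.mem_centralizer_iff.mpr fun q hq =>
        congrArg Subtype.val (Subgroup.mem_center_iff.mp z.2 ⟨q, hq⟩)) g⟩
  let E : Subgroup G :=
    { carrier := {x | x ^ 2 = 1}
      one_mem' := one_pow 2
      mul_mem' := fun {a b} ha hb => by
        have hc : Commute a b := ((Subgroup.mem_centralizer_iff.mp (hZ b hb).2) a (hZ a ha).1)
        show (a * b) ^ 2 = 1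
        rw [hc.mul_pow, show a ^ 2 = 1 from ha, show b ^ 2 = 1 from hb, one_mul]
      inv_mem' := fun {a} ha => by
        show a⁻¹ ^ 2 = 1
        rw [inv_pow, show a ^ 2 = 1 from ha, inv_one] }
  have hE : ∀ x, x ∈ E ↔ x ^ 2 = 1 := fun x => Iff.rfl
  set N₀ := Nat.card E - 1 with hN₀
  have hE3 : 3 ≤ Nat.card E := by
    obtain ⟨x, y, hxy, hx1, hx, hy1, hy⟩ := htwo
    haveI : Fintype E := Fintype.ofFinite _
    rw [Nat.card_eq_fintype_card]
    exact Fintype.two_lt_card_iff.mpr ⟨⟨1, one_mem E⟩, ⟨x, hx⟩, ⟨y, hy⟩, fun h => hx1 (congrArg Subtype.val h).symm,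
      fun h => hy1 (congrArg Subtype.val h).symm, fun h => hxy (congrArg Subtype.val h)⟩
  have hE2 : IsPGroup 2 E := fun a => ⟨1, Subtype.ext (by rw [pow_one]; exact a.2)⟩
  obtain ⟨n, hn⟩ := IsPGroup.iff_card.mp hE2
  have hN₀odd : N₀.Coprime 2 := by
    have hn0 : n ≠ 0 := fun h => by rw [hn, h] at hE3; omega
    have he : 2 ∣ 2 ^ n := dvd_pow_self 2 hn0
    refine CfsgLib.PCore.coprime_of_not_dvd ?_
    omega
  -- the centraliser of an involution has index `N₀`
  have hclass : ∀ z ∈ E, z ≠ 1 → (Subgroup.centralizer ({z} : Set G)).index = N₀ := by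
    intro z hz hz1
    let f : G ⧸ Subgroup.centralizer ({z} : Set G) → {x : E // x ≠ 1} := fun c =>
      ⟨⟨c.out * z * c.out⁻¹, by rw [hE, conj_pow, (hE z).mp hz]; group⟩, fun h => hz1 (by
        have h' := congrArg Subtype.val h
        simpa using h')⟩
    have hf : Function.Bijective f := by
      constructor
      · intro c d h
        have h' : c.out * z * c.out⁻¹ = d.out * z * d.out⁻¹ :=
          congrArg (fun w : {x : E // x ≠ 1} => ((w : E) : G)) h
        rw [← QuotientGroup.out_eq' c, ← QuotientGroup.out_eq' d, QuotientGroup.eq,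
          Subgroup.mem_centralizer_singleton_iff]
        calc c.out⁻¹ * d.out * z = c.out⁻¹ * (d.out * z * d.out⁻¹) * d.out := by group
          _ = c.out⁻¹ * (c.out * z * c.out⁻¹) * d.out := by rw [h']
          _ = z * (c.out⁻¹ * d.out) := by group
      · intro w
        obtain ⟨g, hg⟩ := isConj_iff.mp (hconj z (w.1 : G) hz1 hz
          (fun h => w.2 (Subtype.ext h)) w.1.2)
        refine ⟨(g : G ⧸ Subgroup.centralizer ({z} : Set G)), Subtype.ext (Subtype.ext ?_)⟩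
        obtain ⟨c, hc⟩ := QuotientGroup.mk_out_eq_mul (Subgroup.centralizer ({z} : Set G)) g
        show Quotient.out _ * z * (Quotient.out _)⁻¹ = _
        rw [hc, ← hg]
        calc g * c * z * (g * c)⁻¹ = g * ((c : G) * z) * (c : G)⁻¹ * g⁻¹ := by group
          _ = g * (z * c) * (c : G)⁻¹ * g⁻¹ := by rw [Subgroup.mem_centralizer_singleton_iff.mp c.2]
          _ = g * z * g⁻¹ := by group
    rw [Subgroup.index_eq_card, Nat.card_eq_of_bijective f hf, hN₀]
    haveI : Fintype E := Fintype.ofFinite _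
    rw [Nat.card_eq_fintype_card, Nat.card_eq_fintype_card, Fintype.card_subtype_compl,
      Fintype.card_subtype_eq]
  -- the next core
  set π := QuotientGroup.mk' Q with hπ
  have hπs : Function.Surjective π := QuotientGroup.mk'_surjective Q
  have hπ1 : ∀ x, π x = 1 ↔ x ∈ Q := fun x => QuotientGroup.eq_one_iff x
  set Mb := Cfsg.pPrimeCore 2 (G ⧸ Q) with hMb
  haveI hMbc : Mb.Characteristic := CfsgLib.PCore.pPrimeCore_characteristic 2 (G ⧸ Q)
  set M := Mb.comap π with hM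
  haveI : M.Normal := Subgroup.Normal.comap inferInstance π
  have hQM : Q ≤ M := fun x hx => by
    rw [hM, Subgroup.mem_comap, (hπ1 x).mpr hx]
    exact one_mem _
  have hidx : (Q.subgroupOf M).index = Nat.card Mb := by
    have h1 := CfsgLib.PCore.card_comap_mk' Q Mb
    rw [← hπ, ← hM, ← Subgroup.card_mul_index (Q.subgroupOf M),
      Nat.card_congr (Subgroup.subgroupOfEquivOfLe hQM).toEquiv] at h1
    exact Nat.eq_of_mul_eq_mul_left Nat.card_pos h1
  have hcop : (Nat.card (Q.subgroupOf M)).Coprime (Q.subgroupOf M).index := by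
    obtain ⟨k, hk⟩ := IsPGroup.iff_card.mp hQp
    rw [Nat.card_congr (Subgroup.subgroupOfEquivOfLe hQM).toEquiv, hk, hidx]
    exact ((CfsgLib.PCore.pPrimeCore_coprime 2 (G ⧸ Q)).symm).pow_left _
  haveI : (Q.subgroupOf M).Normal := Subgroup.Normal.subgroupOf inferInstance M
  obtain ⟨K₀, hK₀⟩ := Subgroup.exists_right_complement'_of_coprime hcop
  set K := K₀.map M.subtype with hKdef
  have hKM : K ≤ M := Subgroup.map_subtype_le _
  have hcardK : Nat.card K = Nat.card K₀ := Subgroup.card_map_of_injective M.subtype_injective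
  have hKcop : (Nat.card K).Coprime 2 := by
    rw [hcardK, ← hK₀.symm.index_eq_card, hidx]
    exact CfsgLib.PCore.pPrimeCore_coprime 2 (G ⧸ Q)
  have hQK : ∀ m ∈ M, ∃ q ∈ Q, ∃ k ∈ K, m = q * k := fun m hm => by
    obtain ⟨q, hq, k, hk, e⟩ : (⟨m, hm⟩ : M) ∈ ((Q.subgroupOf M : Set M) * (K₀ : Set M)) := by
      rw [hK₀.mul_eq]; trivial
    exact ⟨q, hq, k, ⟨k, hk, rfl⟩, (congrArg Subtype.val e).symm⟩
  have hKQ : K ⊓ Q = ⊥ := by
    rw [eq_bot_iff]
    rintro x ⟨hxK, hxQ⟩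
    obtain ⟨k, hk, rfl⟩ := hxK
    have : k ∈ Q.subgroupOf M ⊓ K₀ := ⟨hxQ, hk⟩
    rw [hK₀.disjoint.eq_bot, Subgroup.mem_bot] at this
    simp [this]
  have hMb0 : Mb ≠ ⊥ := by
    intro h0
    haveI : Nontrivial (G ⧸ Q) := Finite.one_lt_card_iff_nontrivial.mp (by
      rw [← Subgroup.index_eq_card]
      exact lt_of_lt_of_le one_lt_two (Nat.le_of_dvd (Nat.pos_of_ne_zero Subgroup.index_ne_zero_of_finite) hdvd))
    rcases CfsgLib.PCore.cores_ne_bot_of_isSolvable (p := 2) (G := G ⧸ Q) with e | e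
    · exact e CfsgLib.PCore.pCore_quotient
    · exact e h0
  set N := Subgroup.normalizer (K : Set G)
  have hQNc : ∀ x ∈ Q, x ∈ N → x ∈ Subgroup.centralizer (K : Set G) := fun x hxQ hxN k hk => by
    have h1 : x * k * x⁻¹ * k⁻¹ ∈ K ⊓ Q := by
      refine ⟨K.mul_mem ((Subgroup.mem_normalizer_iff.mp hxN k).mp hk) (K.inv_mem hk), ?_⟩
      rw [mul_assoc, mul_assoc, ← mul_assoc k]
      exact mul_mem hxQ (Subgroup.Normal.conj_mem inferInstance _ (inv_mem hxQ) k)
    rw [hKQ, Subgroup.mem_bot, mul_inv_eq_one, mul_inv_eq_iff_eq_mul] at h1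
    exact h1.symm
  have hfrat : ∀ g : G, ∃ q ∈ Q, ∃ n ∈ N, g = q * n := by
    intro g
    have hsolv : Group.IsSolvable (Q.subgroupOf M) := inferInstance
    let φ : M ≃* M := MulAut.conjNormal g
    have hK₁ : Subgroup.IsComplement' (Q.subgroupOf M) (K₀.map φ.toMonoidHom) := by
      refine Subgroup.isComplement'_of_coprime ?_ ?_
      · rw [Subgroup.card_map_of_injective (f := φ.toMonoidHom) φ.injective, ← hK₀.symm.index_eq_card, Subgroup.card_mul_index]
      · rw [Subgroup.card_map_of_injective (f := φ.toMonoidHom) φ.injective, ← hK₀.symm.index_eq_card]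
        exact hcop
    obtain ⟨a, ha, hconj'⟩ := CfsgLib.CoprimeAction.complement_conj' (Q.subgroupOf M) hcop (Or.inl hsolv) hK₁ hK₀
    have hmem : ∀ k ∈ K, (a : G) * g * k * ((a : G) * g)⁻¹ ∈ K := by
      rintro _ ⟨k, hk, rfl⟩
      have h1 : a * φ k * a⁻¹ ∈ K₀ := hconj' ▸ CfsgLib.CoprimeAction.conj_mem_conj_smul ⟨k, hk, rfl⟩
      refine ⟨a * φ k * a⁻¹, h1, ?_⟩
      simp [φ, mul_assoc]
    refine ⟨(a : G)⁻¹, inv_mem ha, (a : G) * g, ?_, by group⟩
    exact Subgroup.mem_normalizer_iff_map_conj_eq.mpr (Subgroup.eq_of_le_of_card_ge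
      (by rintro _ ⟨k, hk, rfl⟩; exact hmem k hk)
      (le_of_eq (Subgroup.card_map_of_injective (MulEquiv.injective (MulAut.conj ((a : G) * g)))).symm))
  -- `K` centralises every involution
  have hKE : ∀ e ∈ E, e ∈ Subgroup.centralizer (K : Set G) := by
    by_contra hno
    push Not at hno
    obtain ⟨e, he, heK⟩ := hno
    have hnone : ∀ x ∈ E, x ≠ 1 → x ∉ Subgroup.centralizer (K : Set G) := by
      intro x hx hx1 hxK
      have hxM : x ∈ Subgroup.centralizer (M : Set G) := fun m hm => by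
        obtain ⟨q, hq, k, hk, rfl⟩ := hQK m hm
        rw [mul_assoc, hxK k hk, ← mul_assoc, (hZ x hx).2 q hq, mul_assoc]
      haveI : (Subgroup.centralizer (M : Set G)).Normal := Subgroup.normal_centralizer
      rcases eq_or_ne e 1 with rfl | he1
      · exact heK (one_mem _)
      obtain ⟨g, rfl⟩ := isConj_iff.mp (hconj x e hx1 hx he1 he)
      exact heK fun k hk => (Subgroup.Normal.conj_mem inferInstance x hxM g) k (hKM hk)
    have hQN : Q ⊓ N = ⊥ := by
      rw [eq_bot_iff]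
      rintro x ⟨hxQ, hxN⟩
      by_contra hx1
      rw [Subgroup.mem_bot] at hx1
      have hone : orderOf x ≠ 1 := orderOf_eq_one_iff.not.mpr hx1
      obtain ⟨k, hk⟩ := hQp ⟨x, hxQ⟩
      have hpd : 2 ∣ orderOf x := by
        have h1 : orderOf x ∣ 2 ^ k := orderOf_dvd_of_pow_eq_one (congrArg Subtype.val hk)
        obtain ⟨j, -, hj⟩ := (Nat.dvd_prime_pow Nat.prime_two).mp h1
        rw [hj] at hone ⊢
        exact dvd_pow_self 2 (fun hj0 => hone (by rw [hj0, pow_zero]))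
      have h2 := orderOf_pow_orderOf_div (orderOf_pos x).ne' hpd
      refine hnone (x ^ (orderOf x / 2)) ((hE _).mpr (by
        have := pow_orderOf_eq_one (x ^ (orderOf x / 2))
        rwa [h2] at this)) (fun h => by rw [h, orderOf_one] at h2; omega)
        (pow_mem (hQNc x hxQ hxN) _)
    have hcardN : Q.index = Nat.card N := by
      have hcompl : Subgroup.IsComplement' Q N := Subgroup.isComplement'_of_disjoint_and_mul_eq_univ
        (disjoint_iff.mpr hQN) (Set.eq_univ_of_forall fun g => by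
          obtain ⟨q, hq, n, hn, rfl⟩ := hfrat g
          exact ⟨q, hq, n, hn, rfl⟩)
      exact hcompl.symm.index_eq_card
    obtain ⟨x, hx⟩ := exists_prime_orderOf_dvd_card' (G := N) 2 (hcardN ▸ hdvd)
    have hxQ : (x : G) ∈ Q ⊓ N :=
      ⟨(hZ _ (by rw [← hx, ← Subgroup.orderOf_coe]; exact pow_orderOf_eq_one _)).1, x.2⟩
    rw [hQN, Subgroup.mem_bot] at hxQ
    rw [show x = 1 from Subtype.ext hxQ, orderOf_one] at hx
    omega
  -- stabilisers in `G ⧸ Q`
  let Stab : G → Subgroup (G ⧸ Q) := fun z => (Subgroup.centralizer ({z} : Set G)).map π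
  have hQstab : ∀ z ∈ E, Q ≤ Subgroup.centralizer ({z} : Set G) := fun z hz q hq => by
    rw [Subgroup.mem_centralizer_singleton_iff]
    exact (hZ z hz).2 q hq
  have hStabidx : ∀ z ∈ E, z ≠ 1 → (Stab z).index = N₀ := fun z hz hz1 => by
    show ((Subgroup.centralizer ({z} : Set G)).map π).index = N₀
    rw [Subgroup.index_map_eq _ hπs (by rw [hπ, QuotientGroup.ker_mk']; exact hQstab z hz), hclass z hz hz1]
  have hXstab : ∀ z ∈ E, Mb ≤ Stab z := fun z hz x hx => by
    obtain ⟨g, rfl⟩ := hπs x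
    obtain ⟨q, hq, k, hk, rfl⟩ := hQK g hx
    refine ⟨q * k, mul_mem (hQstab z hz hq) ?_, rfl⟩
    rw [Subgroup.mem_centralizer_singleton_iff]
    exact hKE z hz k hk
  -- the group `A`
  haveI : Nontrivial ((G ⧸ Q) ⧸ Mb) := Finite.one_lt_card_iff_nontrivial.mp (by
    by_contra h
    have hpos : 0 < Nat.card ((G ⧸ Q) ⧸ Mb) := Nat.card_pos
    have h2 : 2 ∣ Nat.card Mb := by
      rw [Subgroup.index_eq_card, ← Subgroup.card_mul_index Mb, Subgroup.index_eq_card,
        show Nat.card ((G ⧸ Q) ⧸ Mb) = 1 by omega, mul_one] at hdvd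
      exact hdvd
    exact CfsgLib.PCore.not_dvd_card_pPrimeCore 2 (G ⧸ Q) h2)
  haveI hLbc : (Cfsg.pCore 2 ((G ⧸ Q) ⧸ Mb)).Characteristic := CfsgLib.PCore.pCore_characteristic 2 _
  set Lb := Cfsg.pCore 2 ((G ⧸ Q) ⧸ Mb) with hLb
  have hLb0 : Lb ≠ ⊥ :=
    CfsgLib.PCore.cores_ne_bot_of_isSolvable.resolve_right (not_not.mpr CfsgLib.PCore.pPrimeCore_quotient)
  set L := Lb.comap (QuotientGroup.mk' Mb) with hL
  haveI : L.Normal := Subgroup.Normal.comap inferInstance _
  have hML : Mb ≤ L := fun x hx => by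
    rw [hL, Subgroup.mem_comap, QuotientGroup.mk'_apply, (QuotientGroup.eq_one_iff x).mpr hx]
    exact one_mem _
  obtain ⟨i, hi⟩ := IsPGroup.iff_card.mp (CfsgLib.PCore.isPGroup_pCore 2 ((G ⧸ Q) ⧸ Mb))
  rw [← hLb] at hi
  have hMLidx : Mb.relIndex L = 2 ^ i := by
    have h1 := CfsgLib.PCore.card_comap_mk' Mb Lb
    rw [← hL] at h1
    have h2 := Subgroup.relIndex_mul_relIndex ⊥ Mb L bot_le hML
    rw [Subgroup.relIndex_bot_left, Subgroup.relIndex_bot_left, h1, hi] at h2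
    exact Nat.eq_of_mul_eq_mul_left Nat.card_pos h2
  obtain ⟨P⟩ : Nonempty (Sylow 2 L) := inferInstance
  set A₀ := (P : Subgroup L).map L.subtype with hA₀
  have hA₀L : A₀ ≤ L := Subgroup.map_subtype_le _
  have hA₀2 : IsPGroup 2 A₀ := P.2.map _
  have hA₀idx : ¬ 2 ∣ A₀.relIndex L := by
    have : A₀.relIndex L = (P : Subgroup L).index := by
      show (A₀.subgroupOf L).index = _
      rw [hA₀, Subgroup.subgroupOf, Subgroup.comap_map_eq_self_of_injective L.subtype_injective]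
    rw [this]; exact P.not_dvd_index
  have hsup : A₀ ⊔ Mb = L := by
    refine le_antisymm (sup_le hA₀L hML) (Subgroup.relIndex_eq_one.mp ?_)
    obtain ⟨j, hj, hj'⟩ := (Nat.dvd_prime_pow Nat.prime_two).mp
      (hMLidx ▸ Subgroup.relIndex_dvd_of_le_left L (le_sup_right : Mb ≤ A₀ ⊔ Mb))
    have h2 : ¬ 2 ∣ (A₀ ⊔ Mb).relIndex L := fun h =>
      hA₀idx (h.trans (Subgroup.relIndex_dvd_of_le_left L le_sup_left))
    rw [hj'] at h2 ⊢
    rcases j with _ | j
    · rw [pow_zero]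
    · exact absurd (dvd_pow_self 2 (Nat.succ_ne_zero j)) h2
  have hA₀0 : A₀ ≠ ⊥ := fun h => by
    rw [h, bot_sup_eq] at hsup
    apply hLb0
    rw [← Subgroup.map_comap_eq_self_of_surjective (QuotientGroup.mk'_surjective Mb) Lb, ← hL, ← hsup,
      QuotientGroup.map_mk'_self]
  set Y := Subgroup.normalizer (A₀ : Set (G ⧸ Q)) with hY
  have hYM : ∀ h : G ⧸ Q, ∃ y ∈ Y, ∃ m ∈ Mb, h = y * m := by
    intro h
    have h1 : (Y : Subgroup (G ⧸ Q)) ⊔ L = ⊤ := Sylow.normalizer_sup_eq_top P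
    have h2 : h ∈ Y ⊔ Mb := by
      have : Y ⊔ Mb = ⊤ := by
        rw [eq_top_iff, ← h1, ← hsup]
        exact sup_le le_sup_left (sup_le (Subgroup.le_normalizer.trans le_sup_left) le_sup_right)
      rw [this]; exact Subgroup.mem_top _
    obtain ⟨y, hy, m, hm, e⟩ := Subgroup.mem_sup_of_normal_right.mp h2
    exact ⟨y, hy, m, hm, e.symm⟩
  -- a Hall subgroup of odd order of `Y`
  obtain ⟨R, hRY, hRodd, hRidx⟩ : ∃ R ≤ Y, (Nat.card R).Coprime 2 ∧ ∃ k, R.relIndex Y = 2 ^ k := by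
    obtain ⟨k, m, hm, hYc⟩ := Nat.exists_eq_pow_mul_and_not_dvd (Nat.card_pos (α := Y)).ne' 2 (by norm_num)
    obtain ⟨R', hR'⟩ := CfsgLib.Hall.exists_hall (G := Y) m (2 ^ k) (by rw [hYc, mul_comm])
      ((CfsgLib.PCore.coprime_of_not_dvd hm).pow_right _)
    refine ⟨R'.map Y.subtype, Subgroup.map_subtype_le _, ?_, k, ?_⟩
    · rw [Subgroup.card_map_of_injective Y.subtype_injective, hR']
      exact CfsgLib.PCore.coprime_of_not_dvd hm
    · show ((R'.map Y.subtype).subgroupOf Y).index = 2 ^ k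
      rw [Subgroup.subgroupOf, Subgroup.comap_map_eq_self_of_injective Y.subtype_injective]
      have h := R'.card_mul_index
      rw [hR', hYc, mul_comm (2 ^ k) m] at h
      exact Nat.eq_of_mul_eq_mul_left (Nat.pos_of_ne_zero fun h0 => hm (by rw [h0]; exact dvd_zero 2)) h
  obtain ⟨k₂, hk₂⟩ := hRidx
  have hRtrans : ∀ z ∈ E, z ≠ 1 → N₀ ∣ (Stab z).relIndex R := by
    intro z hz hz1
    have hY' : (Stab z).relIndex Y = N₀ := by
      rw [relIndex_eq_index_of_mul (fun h => ?_), hStabidx z hz hz1]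
      obtain ⟨y, hy, m, hm, e⟩ := hYM h
      exact ⟨y, hy, m, hXstab z hz hm, e⟩
    have h1 := Subgroup.relIndex_mul_relIndex (Stab z ⊓ R) R Y inf_le_right hRY
    have h2 := Subgroup.relIndex_mul_relIndex (Stab z ⊓ R) (Stab z ⊓ Y) Y (inf_le_inf_left _ hRY) inf_le_right
    rw [Subgroup.inf_relIndex_right, hY', ← h1, Subgroup.inf_relIndex_right, hk₂] at h2
    exact (hN₀odd.pow_right k₂).dvd_of_dvd_mul_right (Dvd.intro_left _ h2)
  -- `A`: minimal among the subgroups of `Ω₁(Z(A₀))` normalised by `R`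
  obtain ⟨A, hA⟩ := (Set.toFinite {B : Subgroup (G ⧸ Q) | (∀ b ∈ B, b ∈ A₀ ∧ b ^ 2 = 1 ∧ ∀ a ∈ A₀, a * b = b * a) ∧
      R ≤ Subgroup.normalizer (B : Set (G ⧸ Q)) ∧ B ≠ ⊥}).exists_minimal (by
    let Ω : Subgroup (G ⧸ Q) :=
      { carrier := {b | b ∈ A₀ ∧ b ^ 2 = 1 ∧ ∀ a ∈ A₀, a * b = b * a}
        one_mem' := ⟨one_mem _, one_pow 2, fun a _ => by rw [mul_one, one_mul]⟩
        mul_mem' := by
          rintro x y ⟨hx, hx2, hxc⟩ ⟨hy, hy2, hyc⟩
          refine ⟨mul_mem hx hy, ?_, fun a ha => ?_⟩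
          · rw [(show Commute x y from hyc x hx).mul_pow, hx2, hy2, one_mul]
          · rw [← mul_assoc, hxc a ha, mul_assoc, hyc a ha, mul_assoc]
        inv_mem' := by
          rintro x ⟨hx, hx2, hxc⟩
          refine ⟨inv_mem hx, by rw [inv_pow, hx2, inv_one], fun a ha => ?_⟩
          exact (show Commute a x from hxc a ha).inv_right.eq }
    refine ⟨Ω, fun b hb => hb, ?_, ?_⟩
    · intro r hr
      have hrn := hRY hr
      rw [hY] at hrn
      have hstep : ∀ r ∈ R, ∀ x ∈ Ω, r * x * r⁻¹ ∈ Ω := by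
        rintro r hr x ⟨hx, hx2, hxc⟩
        have hrn : r ∈ Subgroup.normalizer (A₀ : Set (G ⧸ Q)) := hRY hr
        refine ⟨(Subgroup.mem_normalizer_iff.mp hrn x).mp hx, by rw [conj_pow, hx2, mul_one, mul_inv_cancel],
          fun a ha => ?_⟩
        have h := hxc _ ((Subgroup.mem_normalizer_iff''.mp hrn a).mp ha)
        calc a * (r * x * r⁻¹) = r * (r⁻¹ * a * r * x) * r⁻¹ := by group
          _ = r * (x * (r⁻¹ * a * r)) * r⁻¹ := by rw [h]
          _ = r * x * r⁻¹ * a := by group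
      rw [Subgroup.mem_normalizer_iff]
      refine fun x => ⟨hstep r hr x, fun h => ?_⟩
      have := hstep r⁻¹ (inv_mem hr) _ h
      simpa [mul_assoc] using this
    · haveI : Nontrivial A₀ := (Subgroup.nontrivial_iff_ne_bot A₀).mpr hA₀0
      haveI := hA₀2.center_nontrivial
      obtain ⟨j, hj⟩ := IsPGroup.iff_card.mp (hA₀2.to_subgroup (Subgroup.center A₀))
      have hj0 : j ≠ 0 := fun h0 => by
        rw [h0, pow_zero] at hj
        exact (Finite.one_lt_card (α := Subgroup.center A₀)).ne' hj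
      obtain ⟨z, hz⟩ := exists_prime_orderOf_dvd_card' (G := Subgroup.center A₀) 2 (hj ▸ dvd_pow_self 2 hj0)
      intro hbot
      have hzG : orderOf ((z : A₀) : G ⧸ Q) = 2 := by rw [Subgroup.orderOf_coe, Subgroup.orderOf_coe, hz]
      have hmem : ((z : A₀) : G ⧸ Q) ∈ Ω := ⟨(z : A₀).2, by
          have := pow_orderOf_eq_one ((z : A₀) : G ⧸ Q)
          rwa [hzG] at this,
        fun a ha => congrArg Subtype.val (Subgroup.mem_center_iff.mp z.2 ⟨a, ha⟩)⟩
      rw [hbot, Subgroup.mem_bot] at hmem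
      rw [hmem, orderOf_one] at hzG
      omega)
  obtain ⟨hAmem, hRA, hA0⟩ := hA.prop
  haveI hAc : IsMulCommutative A :=
    ⟨⟨fun a b => Subtype.ext ((hAmem b b.2).2.2 a (hAmem a a.2).1)⟩⟩
  have hAexp : ∀ a ∈ A, a ^ 2 = 1 := fun a ha => (hAmem a ha).2.1
  have hAmin : ∀ B ≤ A, R ≤ Subgroup.normalizer (B : Set (G ⧸ Q)) → B ≠ ⊥ → B = A := fun B hB hR hB0 =>
    le_antisymm hB (hA.le_of_le ⟨fun b hb => hAmem b (hB hb), hR, hB0⟩ hB)
  -- the orbit lemma
  have horbit : ∀ t ∈ A, t ≠ 1 →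
      N₀ ≤ (R ⊓ Subgroup.centralizer ({t} : Set (G ⧸ Q))).relIndex R := by
    intro t ht ht1
    obtain ⟨g, rfl⟩ := hπs t
    set R₁ := R ⊓ Subgroup.centralizer ({π g} : Set (G ⧸ Q)) with hR₁
    set Rh := R₁.comap π with hRh
    have hQRh : Q ≤ Rh := fun x hx => by
      rw [hRh, Subgroup.mem_comap, (hπ1 x).mpr hx]; exact one_mem _
    have hidx₁ : (Q.subgroupOf Rh).index = Nat.card R₁ := by
      have h1 := CfsgLib.PCore.card_comap_mk' Q R₁
      rw [← hπ, ← hRh, ← Subgroup.card_mul_index (Q.subgroupOf Rh),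
        Nat.card_congr (Subgroup.subgroupOfEquivOfLe hQRh).toEquiv] at h1
      exact Nat.eq_of_mul_eq_mul_left Nat.card_pos h1
    have hcop₁ : (Nat.card (Q.subgroupOf Rh)).Coprime (Q.subgroupOf Rh).index := by
      obtain ⟨k, hk⟩ := IsPGroup.iff_card.mp hQp
      rw [Nat.card_congr (Subgroup.subgroupOfEquivOfLe hQRh).toEquiv, hk, hidx₁]
      exact ((hRodd.coprime_dvd_left (Subgroup.card_dvd_of_le inf_le_left)).symm).pow_left _
    haveI : (Q.subgroupOf Rh).Normal := Subgroup.Normal.subgroupOf inferInstance Rh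
    obtain ⟨C₀, hC₀⟩ := Subgroup.exists_right_complement'_of_coprime hcop₁
    set Rt := C₀.map Rh.subtype with hRt
    have hRtcard : Nat.card Rt = Nat.card R₁ := by
      rw [hRt, Subgroup.card_map_of_injective Rh.subtype_injective, ← hC₀.symm.index_eq_card, hidx₁]
    have hRtimg : ∀ r ∈ R₁, ∃ x ∈ Rt, π x = r := by
      intro r hr
      obtain ⟨x, rfl⟩ := hπs r
      obtain ⟨q, hq, c, hc, e⟩ : (⟨x, hr⟩ : Rh) ∈ ((Q.subgroupOf Rh : Set Rh) * (C₀ : Set Rh)) := by
        rw [hC₀.mul_eq]; trivial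
      refine ⟨(c : G), ⟨c, hc, rfl⟩, ?_⟩
      have e' : (q : G) * c = x := congrArg Subtype.val e
      rw [← e', map_mul, (hπ1 (q : G)).mpr hq, one_mul]
    obtain ⟨q, hq, hfixg⟩ := CfsgLib.CoprimeAction.exists_fixed_of_coset
      (φ := (MulAut.conj : G →* MulAut G).comp Rt.subtype) (N := Q)
      (fun a x hx => Subgroup.Normal.conj_mem inferInstance x hx (a : G))
      (by
        obtain ⟨k, hk⟩ := IsPGroup.iff_card.mp hQp
        rw [hk, hRtcard]
        exact (hRodd.coprime_dvd_left (Subgroup.card_dvd_of_le inf_le_left)).pow_right _)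
      (Or.inr inferInstance) (k := g) (fun a => by
        obtain ⟨c, -, hc⟩ := a.2
        have ha1 : π (a : G) ∈ R₁ := hc ▸ c.2
        show (a : G) * g * (a : G)⁻¹ * g⁻¹ ∈ Q
        rw [← hπ1, map_mul, map_mul, map_mul, map_inv, map_inv,
          Subgroup.mem_centralizer_singleton_iff.mp (Subgroup.mem_inf.mp ha1).2, mul_inv_cancel_right,
          mul_inv_cancel])
    set t' := q * g
    have ht' : π t' = π g := by rw [map_mul, (hπ1 q).mpr hq, one_mul]
    have h2 : t' ^ 2 ∈ Q := by rw [← hπ1, map_pow, ht']; exact hAexp _ ht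
    obtain ⟨k, hk⟩ := hQp ⟨_, h2⟩
    have hk' : t' ^ 2 ^ (k + 1) = 1 := by rw [pow_succ', pow_mul]; exact congrArg Subtype.val hk
    obtain ⟨j, -, hj⟩ := (Nat.dvd_prime_pow Nat.prime_two).mp (orderOf_dvd_of_pow_eq_one hk')
    have hj0 : j ≠ 0 := fun h0 => ht1 (by
      rw [h0, pow_zero, orderOf_eq_one_iff] at hj
      rw [← ht', hj, map_one])
    have hz := orderOf_pow_orderOf_div (orderOf_pos t').ne' (hj ▸ dvd_pow_self 2 hj0 : 2 ∣ orderOf t')
    set z := t' ^ (orderOf t' / 2)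
    have hzE : z ∈ E := (hE z).mpr (by
      have := pow_orderOf_eq_one z
      rwa [hz] at this)
    have hz1 : z ≠ 1 := fun h => by rw [h, orderOf_one] at hz; omega
    have hle : R₁ ≤ Stab z := by
      intro r hr
      obtain ⟨x, hx, rfl⟩ := hRtimg r hr
      refine ⟨x, Subgroup.mem_centralizer_singleton_iff.mpr ?_, rfl⟩
      have h : x * t' * x⁻¹ = t' := hfixg ⟨x, hx⟩
      exact ((show Commute x t' from mul_inv_eq_iff_eq_mul.mp h).pow_right _).eq
    refine Nat.le_of_dvd (Nat.pos_of_ne_zero (Subgroup.index_ne_zero_of_finite (H := R₁.subgroupOf R))) ?_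
    exact (hRtrans z hzE hz1).trans (Subgroup.relIndex_dvd_of_le_left R hle)
  have hN₀2 : 2 ≤ N₀ := by omega
  have hEA : Nat.card E ≤ Nat.card A := by
    obtain ⟨t, ht, ht1⟩ := A.ne_bot_iff_exists_ne_one.mp hA0 |>.elim fun t ht => (⟨t, t.2, fun h => ht (Subtype.ext h)⟩ :
      ∃ t ∈ A, t ≠ 1)
    have h := horbit t ht ht1
    set R₁ := R ⊓ Subgroup.centralizer ({t} : Set (G ⧸ Q))
    let f : R ⧸ R₁.subgroupOf R → {a : A // a ≠ 1} := fun c =>
      ⟨⟨(c.out : G ⧸ Q) * t * (c.out : G ⧸ Q)⁻¹, (Subgroup.mem_normalizer_iff.mp (hRA c.out.2) t).mp ht⟩,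
        fun e => ht1 (by
          have e' := congrArg Subtype.val e
          simpa using e')⟩
    have hf : Function.Injective f := by
      intro c d e
      have h' : (c.out : G ⧸ Q) * t * (c.out : G ⧸ Q)⁻¹ = d.out * t * (d.out : G ⧸ Q)⁻¹ :=
        congrArg (fun w : {a : A // a ≠ 1} => ((w : A) : G ⧸ Q)) e
      rw [← QuotientGroup.out_eq' c, ← QuotientGroup.out_eq' d, QuotientGroup.eq, Subgroup.mem_subgroupOf]
      refine ⟨(c.out⁻¹ * d.out).2, ?_⟩
      show ((c.out⁻¹ * d.out : R) : G ⧸ Q) ∈ Subgroup.centralizer ({t} : Set (G ⧸ Q))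
      rw [Subgroup.mem_centralizer_singleton_iff, Subgroup.coe_mul, Subgroup.coe_inv]
      calc (c.out : G ⧸ Q)⁻¹ * d.out * t = (c.out : G ⧸ Q)⁻¹ * (d.out * t * (d.out : G ⧸ Q)⁻¹) * d.out := by group
        _ = (c.out : G ⧸ Q)⁻¹ * (c.out * t * (c.out : G ⧸ Q)⁻¹) * d.out := by rw [h']
        _ = t * ((c.out : G ⧸ Q)⁻¹ * d.out) := by group
    have h3 : R₁.relIndex R ≤ Nat.card A - 1 := by
      haveI : Fintype A := Fintype.ofFinite _
      refine (Nat.card_le_card_of_injective f hf).trans (le_of_eq ?_)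
      rw [Nat.card_eq_fintype_card, Nat.card_eq_fintype_card, Fintype.card_subtype_compl,
        Fintype.card_subtype_eq]
    omega
  have hAfix : ∀ t ∈ A, R ≤ Subgroup.centralizer ({t} : Set (G ⧸ Q)) → t = 1 := fun t ht hRt => by
    by_contra ht1
    have h := horbit t ht ht1
    rw [inf_eq_left.mpr hRt, Subgroup.relIndex_self] at h
    omega
  -- a prime at which `A` acts nontrivially
  obtain ⟨q, hq, hq2, hnc⟩ : ∃ q : ℕ, q.Prime ∧ q ≠ 2 ∧
      ¬ A ≤ Subgroup.centralizer (Cfsg.pCore q (G ⧸ Q) : Set (G ⧸ Q)) := by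
    by_contra hno
    push Not at hno
    have hFX : Cfsg.fittingSubgroup (G ⧸ Q) ≤ Subgroup.centralizer (A : Set (G ⧸ Q)) ⊓ Mb := by
      rw [CfsgLib.Hall.fitting_eq_iSup_primes]
      refine iSup_le fun q => ?_
      by_cases h2 : (q : ℕ) = 2
      · rw [h2, CfsgLib.PCore.pCore_quotient]; exact bot_le
      haveI : Fact (q : ℕ).Prime := ⟨q.2⟩
      refine le_inf (Subgroup.le_centralizer_iff.mp (hno q q.2 h2)) ?_
      haveI := CfsgLib.PCore.pCore_characteristic q (G ⧸ Q)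
      refine CfsgLib.PCore.le_pPrimeCore inferInstance ?_
      obtain ⟨j, hj⟩ := IsPGroup.iff_card.mp (CfsgLib.PCore.isPGroup_pCore (q : ℕ) (G ⧸ Q))
      rw [hj]
      exact ((Nat.coprime_primes q.2 Nat.prime_two).mpr h2).pow_left _
    have hAX : A ≤ Mb := ((Subgroup.le_centralizer_iff.mp (hFX.trans inf_le_left)).trans
      CfsgLib.Hall.centralizer_fitting_le).trans (hFX.trans inf_le_right)
    refine hA0 (eq_bot_iff.mpr fun a ha => ?_)
    rw [Subgroup.mem_bot]
    by_contra ha1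
    have h1 : orderOf a = 2 := orderOf_eq_prime (hAexp a ha) ha1
    refine CfsgLib.PCore.not_dvd_card_pPrimeCore 2 (G ⧸ Q) ?_
    have hd := orderOf_dvd_natCard (⟨a, hAX ha⟩ : Mb)
    rw [Subgroup.orderOf_mk, h1] at hd
    exact hd
  haveI : Fact q.Prime := ⟨hq⟩
  haveI := CfsgLib.PCore.pCore_characteristic q (G ⧸ Q)
  obtain ⟨D, m, hDP, hDc, hDexp, hDcard, hAm⟩ := exists_frame hq2 A R (Cfsg.pCore q (G ⧸ Q)) hAexp hRA
    (CfsgLib.PCore.isPGroup_pCore q _) hnc hAmin hAfix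
  have hDX : D ≤ Mb := hDP.trans (CfsgLib.PCore.le_pPrimeCore inferInstance (by
    obtain ⟨j, hj⟩ := IsPGroup.iff_card.mp (CfsgLib.PCore.isPGroup_pCore q (G ⧸ Q))
    rw [hj]
    exact ((Nat.coprime_primes hq Nat.prime_two).mpr hq2).pow_left _))
  -- lift it to `K`
  set Dh := K ⊓ D.comap π with hDh
  have hinjK : ∀ x ∈ K, π x = 1 → x = 1 := fun x hx h => by
    have : x ∈ K ⊓ Q := ⟨hx, (hπ1 x).mp h⟩
    rwa [hKQ, Subgroup.mem_bot] at this
  have hDhc : IsMulCommutative Dh := ⟨⟨fun a b => Subtype.ext (by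
    have h : π ((a : G) * b * ((b : G) * a)⁻¹) = 1 := by
      rw [map_mul, map_inv, map_mul, map_mul, mul_inv_eq_one]
      exact congrArg Subtype.val (Std.Commutative.comm (op := fun (u v : D) => u * v)
        ⟨π a, (Subgroup.mem_inf.mp a.2).2⟩ ⟨π b, (Subgroup.mem_inf.mp b.2).2⟩)
    exact mul_inv_eq_one.mp (hinjK _ (mul_mem (mul_mem a.2.1 b.2.1) (inv_mem (mul_mem b.2.1 a.2.1))) h))⟩⟩
  have hDhexp : ∀ x ∈ Dh, x ^ q = 1 := fun x hx =>
    hinjK _ (pow_mem hx.1 q) (by rw [map_pow]; exact hDexp _ hx.2)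
  have hDhcard : Nat.card Dh = q ^ m := by
    rw [← hDcard]
    refine Nat.card_eq_of_bijective (fun x : Dh => (⟨π x, (Subgroup.mem_inf.mp x.2).2⟩ : D)) ⟨fun a b h => ?_, fun d => ?_⟩
    · have h' : π a = π b := congrArg Subtype.val h
      exact Subtype.ext (mul_inv_eq_one.mp (hinjK _ (mul_mem a.2.1 (inv_mem b.2.1))
        (by rw [map_mul, map_inv, h', mul_inv_cancel])))
    · obtain ⟨g, hg⟩ := hπs d
      have hgM : g ∈ M := by rw [hM, Subgroup.mem_comap, hg]; exact hDX d.2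
      obtain ⟨a, ha, k, hk, rfl⟩ := hQK g hgM
      have hk' : π k = d := by rw [← hg, map_mul, (hπ1 a).mpr ha, one_mul]
      exact ⟨⟨k, hk, show π k ∈ D from hk' ▸ d.2⟩, Subtype.ext hk'⟩
  -- a critical subgroup of `Q`
  obtain ⟨H₁, hH₁⟩ := CfsgLib.PGroup.exists_critical hQp ⊤ (fun _ => Subgroup.mem_top _)
  haveI : H₁.Normal := ⟨fun x hx g => by simpa using hH₁.invariant (MulAut.conj g) (Subgroup.mem_top _) x hx⟩
  set C₁ := H₁.map Q.subtype with hC₁
  haveI : C₁.Normal := ⟨by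
    rintro _ ⟨x, hx, rfl⟩ g
    exact ⟨_, hH₁.invariant (MulAut.conjNormal g) (Subgroup.mem_top _) x hx, MulAut.conjNormal_apply g x⟩⟩
  have hH₁p : IsPGroup 2 H₁ := hQp.to_subgroup H₁
  have hC₁p : IsPGroup 2 C₁ := hH₁p.map _
  have hfaith : Dh ⊓ Subgroup.centralizer (C₁ : Set G) = ⊥ := by
    rw [eq_bot_iff]
    intro d hd
    obtain ⟨hdD, hdc⟩ := Subgroup.mem_inf.mp hd
    have hd2 : (orderOf (MulAut.conjNormal d : MulAut Q)).Coprime 2 :=
      hKcop.coprime_dvd_left ((orderOf_map_dvd _ d).trans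
        (by rw [← Subgroup.orderOf_mk d hdD.1]; exact orderOf_dvd_natCard _))
    have h1 := CfsgLib.PGroup.eq_one_of_fixes_selfCentralizing hQp hH₁.centralizer_le hd2 (fun x hx =>
      Subtype.ext (by
        rw [MulAut.conjNormal_apply, mul_inv_eq_iff_eq_mul]
        exact ((Subgroup.mem_centralizer_iff.mp hdc) _ ⟨x, hx, rfl⟩).symm))
    have hdQ : d ∈ Subgroup.centralizer (Q : Set G) := fun x hx => by
      have h := congrArg Subtype.val (DFunLike.congr_fun h1 (⟨x, hx⟩ : Q))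
      rw [MulAut.conjNormal_apply, MulAut.one_apply, mul_inv_eq_iff_eq_mul] at h
      exact h.symm
    rw [← hKQ]
    exact ⟨hdD.1, hhh hdQ⟩
  have hrank := four_pow_mul_le (q := q) hq2 m Dh C₁ hDhc hDhexp hDhcard
    (by rw [Subgroup.normalizer_eq_top C₁]; exact le_top) hC₁p hfaith
  -- the centre of the critical subgroup
  set ι₁ : H₁ →* G := Q.subtype.comp H₁.subtype with hι₁
  have hι₁i : Function.Injective ι₁ := Q.subtype_injective.comp H₁.subtype_injective
  set Z₁ := (Subgroup.center H₁).map ι₁ with hZ₁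
  have hZ₁C : Z₁ ≤ C₁ := by
    rintro _ ⟨x, -, rfl⟩
    exact ⟨x, x.2, rfl⟩
  have hZ₁fix : Z₁ ≤ C₁ ⊓ Subgroup.centralizer (Dh : Set G) := by
    refine le_inf hZ₁C fun z hz d hd => ?_
    refine commute_of_commute_involutions ?_ (hC₁p.to_le hZ₁C) ?_ ?_ ?_ z hz
    · refine Nat.coprime_two_right.mp ?_
      exact hKcop.coprime_dvd_left (by rw [← Subgroup.orderOf_mk d hd.1]; exact orderOf_dvd_natCard _)
    · rintro _ ⟨a, ha, rfl⟩ _ ⟨b, -, rfl⟩
      rw [← map_mul, ← map_mul, (Subgroup.mem_center_iff.mp ha b).symm]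
    · -- `d` normalises the centre
      have hCn : ∀ g : G, ∀ x ∈ Z₁, g * x * g⁻¹ ∈ Z₁ := by
        rintro g _ ⟨x, hx, rfl⟩
        obtain ⟨y, hy, e⟩ := (inferInstance : C₁.Normal).conj_mem (ι₁ x) (hZ₁C ⟨x, hx, rfl⟩) g
        refine ⟨⟨y, hy⟩, Subgroup.mem_center_iff.mpr fun w => hι₁i ?_, e⟩
        obtain ⟨w', hw', ew⟩ := (inferInstance : C₁.Normal).conj_mem (ι₁ w) ⟨w, w.2, rfl⟩ g⁻¹
        have hc := congrArg ι₁ (Subgroup.mem_center_iff.mp hx ⟨w', hw'⟩)
        rw [map_mul, map_mul] at hc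
        have ew' : ι₁ ⟨w', hw'⟩ = g⁻¹ * ι₁ w * g⁻¹⁻¹ := ew
        have e' : ι₁ ⟨y, hy⟩ = g * ι₁ x * g⁻¹ := e
        rw [ew'] at hc
        rw [map_mul, map_mul, e']
        calc ι₁ w * (g * ι₁ x * g⁻¹) = g * (g⁻¹ * ι₁ w * g⁻¹⁻¹ * ι₁ x) * g⁻¹ := by group
          _ = g * (ι₁ x * (g⁻¹ * ι₁ w * g⁻¹⁻¹)) * g⁻¹ := by rw [hc]
          _ = g * ι₁ x * g⁻¹ * ι₁ w := by group
      rw [Subgroup.mem_normalizer_iff]
      intro x
      refine ⟨hCn d x, fun h => ?_⟩
      have := hCn d⁻¹ _ h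
      simpa [mul_assoc] using this
    · intro e _ he2
      exact hKE e ((hE e).mpr he2) d hd.1
  have hcardZ : Nat.card Z₁ = Nat.card (Subgroup.center H₁) := Subgroup.card_map_of_injective hι₁i
  have hcardC : Nat.card C₁ = Nat.card H₁ := Subgroup.card_map_of_injective Q.subtype_injective
  have hW : 4 ^ m ≤ Nat.card (H₁ ⧸ Subgroup.center H₁) := by
    have h1 := (Nat.mul_le_mul_left (4 ^ m) (Subgroup.card_le_of_le hZ₁fix)).trans hrank
    rw [hcardZ, hcardC, ← Subgroup.card_mul_index (Subgroup.center H₁), Subgroup.index_eq_card,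
      mul_comm] at h1
    exact Nat.le_of_mul_le_mul_left h1 Nat.card_pos
  have hcenter : ∀ x : H₁, (x : Q) ∈ Subgroup.centralizer (H₁ : Set Q) → x ∈ Subgroup.center H₁ :=
    fun x hx => Subgroup.mem_center_iff.mpr fun y =>
      Subtype.ext (Subgroup.mem_centralizer_iff.mp hx y y.2)
  have hWE := card_quotient_center_le hH₁p
    (fun x => hcenter _ (hH₁.pow_mem x x.2))
    (fun x y => hcenter _ (Subgroup.mem_inf.mp (hH₁.commutator_le
      (Subgroup.commutator_mem_commutator x.2 (Subgroup.mem_top (y : Q))))).2)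
    (fun x hx => hcenter _ (Subgroup.mem_centralizer_iff.mpr fun y _ => Subtype.ext (by
      have hx' : ((x : Q) : G) ^ 2 = 1 := congrArg (fun w : H₁ => ((w : Q) : G)) hx
      exact (hZ _ hx').2 y y.2)))
  have hle : Nat.card {z : Subgroup.center H₁ // z ^ 2 = 1} ≤ Nat.card E := by
    refine Nat.card_le_card_of_injective (fun z => (⟨ι₁ (z.1 : H₁), ?_⟩ : E)) fun a b h => ?_
    · rw [hE, ← map_pow]
      have hz : ((z.1 : H₁)) ^ 2 = 1 := congrArg (fun w : Subgroup.center H₁ => (w : H₁)) z.2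
      rw [hz, map_one]
    · have h' : ι₁ (a.1 : H₁) = ι₁ (b.1 : H₁) := congrArg (fun w : E => (w : G)) h
      exact Subtype.ext (Subtype.ext (hι₁i h'))
  have hfin : 4 ^ m ≤ Nat.card A ^ 2 :=
    hW.trans (hWE.trans (Nat.pow_le_pow_left (hle.trans hEA) 2))
  have hlt : Nat.card A ^ 2 < (2 ^ m) ^ 2 := Nat.pow_lt_pow_left hAm two_ne_zero
  rw [← pow_mul, mul_comm, pow_mul] at hlt
  norm_num at hlt
  omega

end CfsgLib.OneClassInv
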