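import Mathlib.GroupTheory.FiniteAbelian.Basic
import Cfsg.Agent.OneClassInv.Main

/-!
The statement on solvable groups with one class of involutions.
-/

set_option autoImplicit false

namespace CfsgLib.OneClassInv

universe u

/-- An abelian `2`-group whose automorphisms are transitive on the involutions is homocyclic. -/
theorem homocyclic {P : Type u} [CommGroup P] [Finite P] (hP : IsPGroup 2 P)
    (htr : ∀ x y : P, x ≠ 1 → x ^ 2 = 1 → y ≠ 1 → y ^ 2 = 1 → ∃ α : MulAut P, α x = y) :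
    ∃ m r : ℕ, Nonempty (P ≃* (Fin r → Multiplicative (ZMod (2 ^ m)))) := by
  classical
  haveI : Fact (Nat.Prime 2) := ⟨Nat.prime_two⟩
  obtain ⟨ι, _, n, hn1, ⟨e⟩⟩ := CommGroup.equiv_prod_multiplicative_zmod_of_finite P
  let s : ι → P := fun i => e.symm (Pi.mulSingle i (Multiplicative.ofAdd (1 : ZMod (n i))))
  have hexp : ∀ i, ∃ d : ℕ, n i = 2 ^ (d + 1) := by
    intro i
    obtain ⟨k, hk⟩ := hP (s i)
    have h := congrArg (fun w => e w i) hk
    simp only [map_pow, s, MulEquiv.apply_symm_apply, Pi.pow_apply, Pi.mulSingle_eq_same, map_one,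
      Pi.one_apply] at h
    rw [← ofAdd_nsmul, ofAdd_eq_one, nsmul_eq_mul, mul_one, ZMod.natCast_eq_zero_iff] at h
    obtain ⟨j, -, hj⟩ := (Nat.dvd_prime_pow Nat.prime_two).mp h
    rcases j with _ | j
    · have := hn1 i
      rw [hj, pow_zero] at this
      omega
    · exact ⟨j, hj⟩
  choose d hd using hexp
  have hle : ∀ i j, d i ≤ d j := by
    intro i j
    by_contra hlt
    push Not at hlt
    have hval : ∀ a b, e (s a ^ b) a = Multiplicative.ofAdd ((b : ℕ) : ZMod (n a)) := by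
      intro a b
      rw [map_pow, Pi.pow_apply]
      simp only [s, MulEquiv.apply_symm_apply, Pi.mulSingle_eq_same]
      rw [← ofAdd_nsmul, nsmul_eq_mul, mul_one]
    have hoff : ∀ a b c, c ≠ a → e (s a ^ b) c = 1 := by
      intro a b c hc
      rw [map_pow, Pi.pow_apply]
      simp only [s, MulEquiv.apply_symm_apply, Pi.mulSingle_eq_of_ne hc, one_pow]
    have hinv : ∀ a, s a ^ 2 ^ d a ≠ 1 ∧ (s a ^ 2 ^ d a) ^ 2 = 1 := by
      intro a
      constructor
      · intro h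
        have h' := congrArg (fun w => e w a) h
        simp only [hval, map_one, Pi.one_apply, ofAdd_eq_one, ZMod.natCast_eq_zero_iff, hd a] at h'
        have := Nat.le_of_dvd (by positivity) h'
        rw [pow_succ] at this
        have := Nat.one_le_two_pow (n := d a)
        omega
      · rw [← pow_mul, ← pow_succ]
        apply e.injective
        rw [map_one]
        funext c
        rcases eq_or_ne c a with rfl | hc
        · rw [hval, Pi.one_apply, ofAdd_eq_one, ZMod.natCast_eq_zero_iff, hd c]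
        · rw [hoff _ _ _ hc, Pi.one_apply]
    obtain ⟨α, hα⟩ := htr _ _ (hinv i).1 (hinv i).2 (hinv j).1 (hinv j).2
    have h : e (s j ^ 2 ^ d j) j = 1 := by
      rw [← hα, map_pow, map_pow, Pi.pow_apply]
      obtain ⟨t, ht⟩ := Nat.pow_dvd_pow 2 (show d j + 1 ≤ d i from hlt)
      rw [ht, ← hd j, pow_mul]
      have h0 : (e (α (s i)) j) ^ n j = 1 := by
        apply Multiplicative.toAdd.injective
        rw [toAdd_pow, toAdd_one, nsmul_eq_mul, ZMod.natCast_self, zero_mul]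
      rw [h0, one_pow]
    rw [hval, ofAdd_eq_one, ZMod.natCast_eq_zero_iff, hd j] at h
    have := Nat.le_of_dvd (by positivity) h
    rw [pow_succ] at this
    have := Nat.one_le_two_pow (n := d j)
    omega
  rcases isEmpty_or_nonempty ι with hι | ⟨⟨i₀⟩⟩
  · exact ⟨0, 0, ⟨e.trans
      { toFun := fun _ i => i.elim0
        invFun := fun _ i => hι.elim i
        left_inv := fun _ => funext fun i => hι.elim i
        right_inv := fun _ => funext fun i => i.elim0
        map_mul' := fun _ _ => funext fun i => i.elim0 }⟩⟩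
  have hn : ∀ i, n i = 2 ^ (d i₀ + 1) := fun i => by rw [hd i, le_antisymm (hle i i₀) (hle i₀ i)]
  obtain rfl : n = fun _ => 2 ^ (d i₀ + 1) := funext hn
  exact ⟨d i₀ + 1, Fintype.card ι, ⟨e.trans
    { Equiv.arrowCongr (Fintype.equivFin ι) (Equiv.refl _) with map_mul' := fun _ _ => rfl }⟩⟩

variable {G : Type u} [Group G] [Finite G]

theorem main (hG : Group.IsSolvable G) (S : Sylow 2 G)
    (htwo : ∃ x y : G, x ∈ (S : Subgroup G) ∧ y ∈ (S : Subgroup G) ∧ x ≠ y ∧ x ≠ 1 ∧ x ^ 2 = 1 ∧ y ≠ 1 ∧ y ^ 2 = 1)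
    (hconj : ∀ x y : G, x ≠ 1 → x ^ 2 = 1 → y ≠ 1 → y ^ 2 = 1 → IsConj x y) :
    Cfsg.PLengthLE 2 1 G ∧
      ((∃ m r : ℕ, Nonempty (↥(S : Subgroup G) ≃* (Fin r → Multiplicative (ZMod (2 ^ m))))) ∨
        (¬ IsMulCommutative (S : Subgroup G) ∧ ∃ Y : Subgroup (MulAut ↥(S : Subgroup G)), Group.IsSolvable Y ∧
          ∀ x y : ↥(S : Subgroup G), x ≠ 1 → x ^ 2 = 1 → y ≠ 1 → y ^ 2 = 1 → ∃ a ∈ Y, a x = y)) := by
  classical
  haveI := hG
  haveI : Fact (Nat.Prime 2) := ⟨Nat.prime_two⟩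
  obtain ⟨N, hNn, hN⟩ : ∃ (N : Subgroup G) (_ : N.Normal), N = Cfsg.pPrimeCore 2 G := by
    haveI := CfsgLib.PCore.pPrimeCore_characteristic 2 G
    exact ⟨_, inferInstance, rfl⟩
  haveI := hNn
  have hcop : (Nat.card N).Coprime 2 := hN ▸ CfsgLib.PCore.pPrimeCore_coprime 2 G
  have hSN : ∀ x ∈ (S : Subgroup G), x ∈ N → x = 1 := fun x hx hxN => by
    obtain ⟨k, hk⟩ := S.2 ⟨x, hx⟩
    exact orderOf_eq_one_iff.mp (Nat.eq_one_of_dvd_coprimes (hcop.pow_right k)
      (Subgroup.orderOf_mk x hxN ▸ orderOf_dvd_natCard _)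
      (orderOf_dvd_of_pow_eq_one (congrArg Subtype.val hk)))
  -- involutions lift
  have hlift : ∀ y : G ⧸ N, y ≠ 1 → y ^ 2 = 1 → ∃ z : G, QuotientGroup.mk z = y ∧ z ≠ 1 ∧ z ^ 2 = 1 := by
    intro y hy1 hy
    obtain ⟨g, rfl⟩ := QuotientGroup.mk_surjective y
    have hmem : g ^ 2 ∈ N := by rwa [← QuotientGroup.mk_pow, QuotientGroup.eq_one_iff] at hy
    have hgc : (g ^ 2) ^ Nat.card N = 1 :=
      congrArg Subtype.val (pow_card_eq_one' (x := (⟨g ^ 2, hmem⟩ : N)))
    obtain ⟨b, hb⟩ : ∃ b, Nat.card N = 2 * b + 1 := Nat.coprime_two_right.mp hcop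
    have hmk : (QuotientGroup.mk (g ^ Nat.card N) : G ⧸ N) = QuotientGroup.mk g := by
      rw [QuotientGroup.mk_pow, hb, pow_succ, pow_mul, hy, one_pow, one_mul]
    refine ⟨g ^ Nat.card N, hmk, fun h => hy1 (by rw [← hmk, h, QuotientGroup.mk_one]), ?_⟩
    rw [← pow_mul, mul_comm, pow_mul, hgc]
  have hconj' : ∀ x y : G ⧸ N, x ≠ 1 → x ^ 2 = 1 → y ≠ 1 → y ^ 2 = 1 → IsConj x y := by
    intro x y hx1 hx hy1 hy
    obtain ⟨a, rfl, ha1, ha⟩ := hlift x hx1 hx
    obtain ⟨b, rfl, hb1, hb⟩ := hlift y hy1 hy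
    exact (QuotientGroup.mk' N).map_isConj (hconj a b ha1 ha hb1 hb)
  set π : (S : Subgroup G) →* G ⧸ N := (QuotientGroup.mk' N).comp (S : Subgroup G).subtype with hπ
  have hπi : Function.Injective π := by
    rw [← MonoidHom.ker_eq_bot_iff, eq_bot_iff]
    intro x hx
    exact Subgroup.mem_bot.mpr (Subtype.ext (hSN x x.2 ((QuotientGroup.eq_one_iff _).mp hx)))
  have htwo' : ∃ x y : G ⧸ N, x ≠ y ∧ x ≠ 1 ∧ x ^ 2 = 1 ∧ y ≠ 1 ∧ y ^ 2 = 1 := by
    obtain ⟨x, y, hx, hy, hxy, hx1, hx2, hy1, hy2⟩ := htwo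
    refine ⟨π ⟨x, hx⟩, π ⟨y, hy⟩, fun h => hxy (congrArg Subtype.val (hπi h)),
      (map_ne_one_iff π hπi).mpr fun h => hx1 (congrArg Subtype.val h), ?_,
      (map_ne_one_iff π hπi).mpr fun h => hy1 (congrArg Subtype.val h), ?_⟩
    · rw [← map_pow, show (⟨x, hx⟩ : (S : Subgroup G)) ^ 2 = 1 from Subtype.ext hx2, map_one]
    · rw [← map_pow, show (⟨y, hy⟩ : (S : Subgroup G)) ^ 2 = 1 from Subtype.ext hy2, map_one]
  haveI : Group.IsSolvable (G ⧸ N) := inferInstance
  have hcore' : Cfsg.pPrimeCore 2 (G ⧸ N) = ⊥ := by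
    subst hN; exact CfsgLib.PCore.pPrimeCore_quotient
  have hidx := not_two_dvd_index hcore' hconj' htwo'
  constructor
  · -- the `2`-length
    have e1 := CfsgLib.PLocalBasics.upperPSeries_one (p := 2) (G := G)
    haveI := (Cfsg.upperPSeries 2 G 1).2
    have hmain : ∀ M : Subgroup G, ∀ _ : M.Normal, M = N → ¬ 2 ∣ (Cfsg.pCore 2 (G ⧸ M)).index := by
      intro M _ hM
      subst hM
      exact hidx
    have h2 : ¬ 2 ∣ (Cfsg.upperPSeries 2 G 2).1.index := by
      rw [CfsgLib.PLocalBasics.upperPSeries_succ_odd (n := 1) (by decide),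
        Subgroup.index_comap_of_surjective _ (QuotientGroup.mk'_surjective _)]
      exact hmain _ inferInstance (e1.trans hN.symm)
    haveI := (Cfsg.upperPSeries 2 G 2).2
    show (Cfsg.upperPSeries 2 G (2 + 1)).1 = ⊤
    rw [CfsgLib.PLocalBasics.upperPSeries_succ_even (n := 2) (by decide), eq_top_iff]
    have htop : Cfsg.pPrimeCore 2 (G ⧸ (Cfsg.upperPSeries 2 G 2).1) = ⊤ := top_le_iff.mp
      (CfsgLib.PCore.le_pPrimeCore_of_not_dvd inferInstance (by
        rw [Subgroup.card_top, ← Subgroup.index_eq_card]; exact h2))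
    rw [htop, Subgroup.comap_top]
  -- a Sylow subgroup is the core of the quotient
  set Q := Cfsg.pCore 2 (G ⧸ N) with hQ
  have hQp : IsPGroup 2 Q := CfsgLib.PCore.isPGroup_pCore 2 _
  haveI : Q.Characteristic := CfsgLib.PCore.pCore_characteristic 2 _
  have hrange : π.range = Q := by
    let T : Sylow 2 (G ⧸ N) := S.mapSurjective (QuotientGroup.mk'_surjective N)
    have hT : π.range = (T : Subgroup (G ⧸ N)) := by
      rw [Sylow.coe_mapSurjective, hπ, MonoidHom.range_comp, Subgroup.range_subtype]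
    rw [hT]
    refine le_antisymm (Subgroup.relIndex_eq_one.mp ?_) (CfsgLib.PCore.pCore_le_sylow T)
    obtain ⟨k, hk⟩ := IsPGroup.iff_card.mp T.2
    have h1 : Q.relIndex (T : Subgroup (G ⧸ N)) ∣ 2 ^ k := by
      rw [← hk, ← Subgroup.relIndex_bot_left]
      exact Subgroup.relIndex_dvd_of_le_left _ bot_le
    exact Nat.eq_one_of_dvd_coprimes ((CfsgLib.PCore.coprime_of_not_dvd hidx).symm.pow_left k) h1
      (Subgroup.relIndex_dvd_index_of_normal Q _)
  let e : (S : Subgroup G) ≃* Q := (MonoidHom.ofInjective hπi).trans (MulEquiv.subgroupCongr hrange)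
  let c : G ⧸ N →* MulAut (S : Subgroup G) :=
    (MulAut.congr e.symm).toMonoidHom.comp (MulAut.conjNormal : G ⧸ N →* MulAut Q)
  have htrans : ∀ x y : (S : Subgroup G), x ≠ 1 → x ^ 2 = 1 → y ≠ 1 → y ^ 2 = 1 →
      ∃ a ∈ c.range, a x = y := by
    intro x y hx1 hx hy1 hy
    obtain ⟨g, hg⟩ := isConj_iff.mp (hconj' (π x) (π y) ((map_ne_one_iff π hπi).mpr hx1)
      (by rw [← map_pow, hx, map_one]) ((map_ne_one_iff π hπi).mpr hy1) (by rw [← map_pow, hy, map_one]))
    refine ⟨c g, ⟨g, rfl⟩, e.injective ?_⟩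
    show e (e.symm (MulAut.conjNormal g (e x))) = e y
    rw [MulEquiv.apply_symm_apply]
    exact Subtype.ext ((MulAut.conjNormal_apply g (e x)).trans hg)
  by_cases hab : IsMulCommutative (S : Subgroup G)
  · left
    letI : CommGroup (S : Subgroup G) :=
      { (inferInstance : Group (S : Subgroup G)) with mul_comm := fun a b => Std.Commutative.comm a b }
    exact homocyclic S.2 fun x y hx1 hx hy1 hy => by
      obtain ⟨a, -, ha⟩ := htrans x y hx1 hx hy1 hy
      exact ⟨a, ha⟩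
  · exact Or.inr ⟨hab, c.range, Group.isSolvable_of_surjective c.rangeRestrict_surjective, htrans⟩

end CfsgLib.OneClassInv
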